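import Cfsg.Agent.H57.CentralPart
import Cfsg.Agent.H44.Inflation
import Cfsg.Agent.S0179
import Cfsg.Agent.S1487
import Cfsg.Agent.S0887

/-!
Coherence of the induced characters nontrivial on a central `p`-subgroup of a nilpotent kernel.
-/

set_option autoImplicit false
set_option linter.unusedSectionVars false

namespace Cfsg.Agent.H60.SECore

open Cfsg Cfsg.Agent Cfsg.Agent.H57 Cfsg.Agent.H26

variable {L : Type*} [Group L] [Fintype L] {K : Subgroup L} [hK : K.Normal]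

/-- The members trivial on `Y` and nontrivial on `Z`. -/
abbrev part (K Y Z : Subgroup L) : Set (L → ℂ) := inducedIrrAbove K Y \ inducedIrrAbove K (Y ⊔ Z)

/-- Members constant on two normal subgroups are constant on their join. -/
theorem mem_above_sup {A B : Subgroup L} [A.Normal] [B.Normal] (hAK : A ≤ K) (hBK : B ≤ K) {φ : L → ℂ}
    (hA : φ ∈ inducedIrrAbove K A) (hB : φ ∈ inducedIrrAbove K B) : φ ∈ inducedIrrAbove K (A ⊔ B) := by
  obtain ⟨θ, hθ, h1, hθA, rfl⟩ := hA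
  obtain ⟨θ', hθ', -, hθ'B, e⟩ := hB
  have hθB : ∀ b : K, (b : L) ∈ B → θ b = θ 1 := (S1487.result B K hBK θ hθ).2 fun b hb => by
    rw [e]; exact (S1487.result B K hBK θ' hθ').1 hθ'B b hb
  refine ⟨θ, hθ, h1, fun a ha => ?_, rfl⟩
  have hle : (A ⊔ B).subgroupOf K ≤ H44.kerOf (⟨θ, hθ⟩ : IrrCharacter K) := by
    rw [Subgroup.subgroupOf_sup hAK hBK]
    exact sup_le (fun x hx => H44.mem_kerOf.2 (hθA x hx)) (fun x hx => H44.mem_kerOf.2 (hθB x hx))
  exact H44.mem_kerOf.1 (hle (Subgroup.mem_subgroupOf.2 ha))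

theorem part_mono {Y Y' Z : Subgroup L} [Y.Normal] [Z.Normal] (hYK : Y ≤ K) (hZK : Z ≤ K) (h : Y' ≤ Y) :
    part K Y Z ⊆ part K Y' Z := fun _ ⟨h1, h2⟩ =>
  ⟨inducedIrrAbove_antitone h h1, fun h3 => h2 (mem_above_sup hYK hZK h1 (inducedIrrAbove_antitone le_sup_right h3))⟩

theorem part_bot (Z : Subgroup L) : part K ⊥ Z = inducedIrrAbove K ⊥ \ inducedIrrAbove K Z := by
  rw [part, bot_sup_eq]

theorem relIndex_part (Y Z : Subgroup L) [Y.Normal] [Z.Normal] (hYK : Y ≤ K) (hZK : Z ≤ K) (hYZ : Y ⊓ Z = ⊥) :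
    Y.relIndex K = Nat.card Z * (Y ⊔ Z).relIndex K := by
  rw [← Subgroup.relIndex_mul_relIndex Y (Y ⊔ Z) K le_sup_left (sup_le hYK hZK), sup_comm Y Z]
  congr 1
  rw [Subgroup.relIndex_sup_right, ← Subgroup.inf_relIndex_right, hYZ, Subgroup.relIndex_bot_left]

open scoped Classical in
/-- The squared degrees in a part. -/
theorem part_sum (Y Z : Subgroup L) [Y.Normal] [Z.Normal] (hYK : Y ≤ K) (hZK : Z ≤ K) (hYZ : Y ⊓ Z = ⊥)
    (hirr : ∀ χ ∈ part K Y Z, IsIrrCharacter L χ)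
    (F : Finset (L → ℂ)) (hF : (↑F : Set (L → ℂ)) = part K Y Z)
    (d : (L → ℂ) → ℕ) (hd : ∀ χ ∈ F, χ 1 = (d χ : ℂ)) :
    (∑ χ ∈ F, d χ ^ 2) + K.index * (Y ⊔ Z).relIndex K = K.index * (Nat.card Z * (Y ⊔ Z).relIndex K) := by
  rw [← relIndex_part Y Z hYK hZK hYZ]
  have hmem : ∀ {χ : L → ℂ}, χ ∈ F ↔ χ ∈ part K Y Z := fun {χ} => by rw [← hF, Finset.mem_coe]
  have hfin : (inducedIrrAbove K Y).Finite :=
    Set.Finite.subset (Set.finite_range fun θ : IrrCharacter K => indFun K θ.1)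
      fun _ ⟨θ, hθ, _, _, e⟩ => ⟨⟨θ, hθ⟩, e.symm⟩
  set S := hfin.toFinset with hS
  set SZ := (hfin.subset (inducedIrrAbove_antitone (le_sup_left (b := Z)))).toFinset with hSZ
  have h1 := sum_weights Y hYK S (Set.Finite.coe_toFinset _)
  have h2 := sum_weights (Y ⊔ Z) (sup_le hYK hZK) SZ (Set.Finite.coe_toFinset _)
  have hsplit : S = F ∪ SZ := by
    ext χ
    simp only [hS, hSZ, Finset.mem_union, Set.Finite.mem_toFinset, hmem, Set.mem_diff]
    refine ⟨fun h => (em (χ ∈ inducedIrrAbove K (Y ⊔ Z))).elim Or.inr fun h' => Or.inl ⟨h, h'⟩, ?_⟩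
    rintro (h | h)
    exacts [h.1, inducedIrrAbove_antitone le_sup_left h]
  rw [hsplit, Finset.sum_union (Finset.disjoint_left.2 fun χ hχ h =>
    (hmem.1 hχ).2 ((Set.Finite.mem_toFinset _).1 h)), h2,
    Finset.sum_congr rfl (fun χ hχ => by
      rw [hd χ hχ, irr_inner_self (hirr χ (hmem.1 hχ)), div_one] :
        ∀ χ ∈ F, χ 1 ^ 2 / classInner χ χ = (d χ : ℂ) ^ 2)] at h1
  apply Nat.cast_injective (R := ℂ)
  push_cast
  linear_combination h1

/-- The degree of a character trivial on a subgroup modulo which `W` is central divides the index of `W`. -/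
theorem degree_dvd_index {M : Type*} [Group M] [Finite M] (Y W : Subgroup M) [Y.Normal]
    (hc : ∀ w ∈ W, ∀ k : M, w * k * w⁻¹ * k⁻¹ ∈ Y) {θ : M → ℂ} (hθ : IsIrrCharacter M θ)
    (hker : ∀ a ∈ Y, θ a = θ 1) {m : ℕ} (hm : θ 1 = m) : m ∣ W.index := by
  obtain ⟨ψ, hψ⟩ := H44.exists_eq_inflate Y (⟨θ, hθ⟩ : IrrCharacter M)
    (fun a ha => H44.mem_kerOf.2 (hker a ha))
  obtain ⟨n, ρ, hρ, e⟩ := ψ.2
  haveI := hρ
  have h1 : θ 1 = (Module.finrank ℂ (Fin n → ℂ) : ℂ) := by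
    rw [show θ = (H44.inflate Y ψ).1 by rw [hψ], H44.inflate_apply, QuotientGroup.mk_one, ← e, ρ.char_one]
  rw [hm, Nat.cast_inj] at h1
  have hle : W ≤ (Subgroup.center (M ⧸ Y)).comap (QuotientGroup.mk' Y) := fun w hw => by
    rw [Subgroup.mem_comap, Subgroup.mem_center_iff]
    intro q
    obtain ⟨k, rfl⟩ := QuotientGroup.mk'_surjective Y q
    rw [← map_mul, ← map_mul]
    refine (QuotientGroup.mk'_eq_mk' Y).2 ⟨(k * w)⁻¹ * (w * k), ?_, by group⟩
    have h := ‹Y.Normal›.conj_mem _ (hc w hw k) (k * w)⁻¹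
    rwa [show (k * w)⁻¹ * (w * k * w⁻¹ * k⁻¹) * ((k * w)⁻¹)⁻¹ = (k * w)⁻¹ * (w * k) by group] at h
  rw [h1]
  refine (S0179.result ρ).trans ?_
  rw [← Subgroup.index_comap_of_surjective _ (QuotientGroup.mk'_surjective Y)]
  exact Subgroup.index_dvd_of_le hle

/-- An irreducible character nontrivial on `Z ≤ P` restricts to `P` with a constituent nontrivial on `Z`, whose
degree is that of a member trivial on the complement `W` and divides its degree. -/
theorem exists_anchor_dvd (P W Y₀ Z : Subgroup L) [P.Normal] [W.Normal] [Y₀.Normal] [Z.Normal] (hPK : P ≤ K)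
    (hWK : W ≤ K) (hPW : P ⊓ W = ⊥) (hsup : P ⊔ W = K) (hYW : Y₀ ≤ W) (hZP : Z ≤ P) {χ : L → ℂ}
    (hχ : χ ∈ inducedIrrAbove K ⊥) (hχZ : χ ∉ inducedIrrAbove K Z) {n : ℕ}
    (hn : χ 1 = ((K.index * n : ℕ) : ℂ)) :
    ∃ ψ ∈ part K Y₀ Z, ∃ m : ℕ, ψ 1 = ((K.index * m : ℕ) : ℂ) ∧ m ∣ n := by
  classical
  obtain ⟨θ, hθ, h1, -, rfl⟩ := hχ
  have hZK : Z ≤ K := hZP.trans hPK
  obtain ⟨m', -, hm'⟩ := irr_degree hθ
  rw [H25.indFun_one, hm', Nat.cast_mul, mul_right_inj'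
    (Nat.cast_ne_zero.2 Subgroup.index_ne_zero_of_finite), Nat.cast_inj] at hn
  subst hn
  obtain ⟨z₀, hz₀, hne⟩ : ∃ z : K, (z : L) ∈ Z ∧ θ z ≠ θ 1 := by
    by_contra hall
    push Not at hall
    exact hχZ ⟨θ, hθ, h1, hall, rfl⟩
  set P' := P.subgroupOf K with hP'
  have hres : IsClassFunction P' (fun x : P' => θ x) := fun x y => by
    simpa using isClassFunction_of_isCharacter (isCharacter_of_irr hθ) (x : K) (y : K)
  obtain ⟨η, hη0, hηZ⟩ : ∃ η : IrrCharacter P', classInner (fun x : P' => θ x) η.1 ≠ 0 ∧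
      ∃ z : P', ((z : K) : L) ∈ Z ∧ η.1 z ≠ η.1 1 := by
    by_contra hall
    push Not at hall
    have hexp := H26.class_function_expansion _ hres
    have e1 := congrFun hexp ⟨z₀, hZP hz₀⟩
    have e2 := congrFun hexp 1
    simp only [Finset.sum_apply, Pi.smul_apply, smul_eq_mul] at e1 e2
    refine hne (e1.trans ((Finset.sum_congr rfl fun η _ => ?_).trans e2.symm))
    by_cases h0 : classInner (fun x : P' => θ x) η.1 = 0
    · rw [h0, zero_mul, zero_mul]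
    · rw [hall η h0 ⟨z₀, hZP hz₀⟩ hz₀]
  set W' := W.subgroupOf K with hW'
  set f : P' →* K ⧸ W' := (QuotientGroup.mk' W').comp P'.subtype with hf
  have hfb : Function.Bijective f := by
    refine ⟨(injective_iff_map_eq_one f).2 fun x hx => ?_, fun q => ?_⟩
    · rw [hf, MonoidHom.comp_apply, ← MonoidHom.mem_ker, QuotientGroup.ker_mk'] at hx
      have : ((x : K) : L) ∈ P ⊓ W := ⟨x.2, hx⟩
      rw [hPW, Subgroup.mem_bot] at this
      exact Subtype.ext (Subtype.ext this)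
    · obtain ⟨k, rfl⟩ := QuotientGroup.mk'_surjective W' q
      obtain ⟨a, ha, w, hw, e⟩ := Subgroup.mem_sup_of_normal_right.1 (hsup.ge k.2)
      refine ⟨⟨⟨a, hPK ha⟩, ha⟩, (QuotientGroup.mk'_eq_mk' W').2 ⟨⟨w, hWK hw⟩, hw, Subtype.ext e⟩⟩
  set π : K →* P' := (MulEquiv.ofBijective f hfb).symm.toMonoidHom.comp (QuotientGroup.mk' W') with hπ
  have hπP : ∀ x : P', π x = x := fun x => (MulEquiv.ofBijective f hfb).symm_apply_apply x
  set θ' : K → ℂ := fun k => η.1 (π k) with hθ'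
  have hθ'irr : IsIrrCharacter K θ' :=
    H44.isIrrCharacter_comp_surjective π (fun x => ⟨x, hπP x⟩) η.2
  have hθ'W : ∀ a : K, (a : L) ∈ W → θ' a = θ' 1 := fun a ha => by
    have : π a = π 1 := by
      simp only [hπ, MonoidHom.comp_apply]
      rw [show QuotientGroup.mk' W' a = QuotientGroup.mk' W' 1 from
        ((QuotientGroup.eq_one_iff a).2 (show a ∈ W' from ha)).trans (map_one (QuotientGroup.mk' W')).symm]
    simp only [hθ', this]
  obtain ⟨z, hz, hzne⟩ := hηZ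
  have hθ'Z : θ' z ≠ θ' 1 := by
    simp only [hθ', hπP, map_one]
    exact hzne
  obtain ⟨m, -, hm⟩ := irr_degree η.2
  refine ⟨indFun K θ', ⟨⟨θ', hθ'irr, fun e => hθ'Z (by rw [e]), fun a ha => hθ'W a (hYW ha), rfl⟩, ?_⟩, m,
    by rw [H25.indFun_one]; simp only [hθ', map_one, hm, Nat.cast_mul], ?_⟩
  · intro h
    obtain ⟨θ'', hθ'', -, hk, e⟩ := inducedIrrAbove_antitone le_sup_right h
    refine hθ'Z ((S1487.result Z K hZK θ' hθ'irr).2 (fun b hb => ?_) z hz)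
    rw [e]
    exact (S1487.result Z K hZK θ'' hθ'').1 hk b hb
  · exact (S0887.result P' θ hθ η.1 η.2 hη0 m' m hm' hm).1

variable {G : Type*} [Group G] [Fintype G]

/-- The part nontrivial on a central `p`-subgroup `Z` is coherent when `K` is nilpotent, `W` is normal of
`p`-power index in `K` avoiding `Z` and central modulo `Y₀ < W`. -/
theorem part_coherent {p : ℕ} (hp : p.Prime) (hp2 : p ≠ 2) (hcop : Nat.Coprime p K.index)
    (hnil : Group.IsNilpotent K) (P W Y₀ Z : Subgroup L) [P.Normal] [W.Normal] [Y₀.Normal] [Z.Normal]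
    (hPK : P ≤ K) (hPW : P ⊓ W = ⊥) (hsup : P ⊔ W = K) (hZP : Z ≤ P)
    (hWK : W ≤ K) (hWp : ∃ n, W.relIndex K = p ^ n) (hYW : Y₀ < W)
    (hWc : ∀ w ∈ W, ∀ k ∈ K, w * k * w⁻¹ * k⁻¹ ∈ Y₀)
    (hZK : Z ≤ K) (hZc : ∀ z ∈ Z, ∀ k ∈ K, z * k = k * z) (hWZ : W ⊓ Z = ⊥)
    (hbig : 2 * K.index < Nat.card Z)
    (hirr : ∀ χ ∈ inducedIrrAbove K ⊥ \ inducedIrrAbove K Z, IsIrrCharacter L χ)
    (hconj : ∀ χ ∈ inducedIrrAbove K ⊥ \ inducedIrrAbove K Z, conjFun χ ≠ χ)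
    (τ : (L → ℂ) → (G → ℂ))
    (hτ : IsLinearIsometryOn (zspanOn (inducedIrrAbove K ⊥ \ inducedIrrAbove K Z) {1}ᶜ) τ)
    (hτ1 : ∀ α ∈ zspanOn (inducedIrrAbove K ⊥ \ inducedIrrAbove K Z) {1}ᶜ, τ α 1 = 0) :
    IsCoherent (inducedIrrAbove K ⊥ \ inducedIrrAbove K Z) {1}ᶜ τ := by
  classical
  set U := inducedIrrAbove K ⊥ \ inducedIrrAbove K Z with hU
  have hY₀K : Y₀ ≤ K := hYW.le.trans hWK
  have hsubU : ∀ Y : Subgroup L, Y.Normal → Y ≤ K → part K Y Z ⊆ U := fun Y hY hYK => by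
    rw [hU, ← part_bot Z]
    haveI := hY
    exact part_mono hYK hZK bot_le
  have hZsec : ∀ {A B : Subgroup L}, A.Normal → B.Normal → (∀ a ∈ A, ∀ k ∈ K, a * k * a⁻¹ * k⁻¹ ∈ B) →
      ∀ x ∈ A ⊔ Z, ∀ k ∈ K, x * k * x⁻¹ * k⁻¹ ∈ B := by
    intro A B hA hB h x hx k hk
    haveI := hA
    obtain ⟨a, ha, z, hz, rfl⟩ := Subgroup.mem_sup_of_normal_right.1 hx
    rw [show a * z * k * (a * z)⁻¹ * k⁻¹ = a * (z * k) * (z⁻¹ * a⁻¹) * k⁻¹ by group, hZc z hz k hk,
      show a * (k * z) * (z⁻¹ * a⁻¹) * k⁻¹ = a * k * a⁻¹ * k⁻¹ by group]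
    exact h a ha k hk
  have hdeg : ∀ {A B : Subgroup L}, A.Normal → B.Normal → B ≤ A → A ≤ K →
      (∀ a ∈ A, ∀ k ∈ K, a * k * a⁻¹ * k⁻¹ ∈ B) → ∀ χ ∈ inducedIrrAbove K B,
      ∃ n : ℕ, χ 1 = ((K.index * n : ℕ) : ℂ) ∧ n ^ 2 ≤ (A ⊔ Z).relIndex K := by
    intro A B hA hB hBA hAK h χ hχ
    haveI := hB
    obtain ⟨θ, hθ, -, hker, rfl⟩ := hχ
    obtain ⟨m, -, hm⟩ := irr_degree hθ
    refine ⟨m, by rw [H25.indFun_one, hm, Nat.cast_mul], ?_⟩
    have h' := irr_degree_section hθ hm B K (A ⊔ Z) (hBA.trans le_sup_left) (sup_le hAK hZK) le_rfl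
      (hZsec hA hB h) hker
    rwa [Subgroup.relIndex_self, one_pow, one_mul] at h'
  obtain ⟨nW, hnW⟩ := hWp
  set r := (W ⊔ Z).relIndex K with hr
  have hrW : r ∣ W.relIndex K :=
    ⟨W.relIndex (W ⊔ Z), by rw [hr, mul_comm, Subgroup.relIndex_mul_relIndex _ _ _ le_sup_left (sup_le hWK hZK)]⟩
  have hdex : ∀ χ : L → ℂ, ∃ b : ℕ, χ ∈ inducedIrrAbove K Y₀ →
      χ 1 = ((K.index * p ^ b : ℕ) : ℂ) ∧ p ^ (2 * b) ∣ r := fun χ => by
    by_cases h : χ ∈ inducedIrrAbove K Y₀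
    · obtain ⟨n, hn, hle⟩ := hdeg ‹W.Normal› ‹Y₀.Normal› hYW.le hWK hWc χ h
      obtain ⟨θ, hθ, -, hker, rfl⟩ := h
      obtain ⟨m, -, hm⟩ := irr_degree hθ
      rw [H25.indFun_one, hm, Nat.cast_mul, mul_right_inj'
        (Nat.cast_ne_zero.2 Subgroup.index_ne_zero_of_finite), Nat.cast_inj] at hn
      have hd : m ∣ W.relIndex K := degree_dvd_index (Y₀.subgroupOf K) (W.subgroupOf K)
        (fun w hw k => hWc w hw k k.2) hθ (fun a ha => hker a ha) hm
      obtain ⟨b, -, rfl⟩ := (Nat.dvd_prime_pow hp).1 (hnW ▸ hd)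
      refine ⟨b, fun _ => ⟨by rw [H25.indFun_one, hm, Nat.cast_mul], ?_⟩⟩
      obtain ⟨c, -, hc⟩ := (Nat.dvd_prime_pow hp).1 (hnW ▸ hrW)
      have hc' : r = p ^ c := hc
      rw [← hn, ← pow_mul] at hle
      change p ^ (b * 2) ≤ r at hle
      rw [hc'] at hle
      rw [hc']
      exact Nat.pow_dvd_pow _ (by
        have := (Nat.pow_le_pow_iff_right hp.one_lt).1 hle
        omega)
    · exact ⟨0, fun h' => absurd h' h⟩
  choose β hβ using hdex
  have hdall : ∀ χ : L → ℂ, ∃ n : ℕ, χ ∈ U → χ 1 = (n : ℂ) := fun χ => by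
    by_cases h : χ ∈ U
    · obtain ⟨n, -, hn⟩ := irr_degree (hirr χ h)
      exact ⟨n, fun _ => hn⟩
    · exact ⟨0, fun h' => absurd h' h⟩
  choose d hd using hdall
  have he0 : 0 < K.index := Nat.pos_of_ne_zero Subgroup.index_ne_zero_of_finite
  set X := (irr_set_finite (S := part K Y₀ Z) fun χ hχ => hirr χ (hsubU Y₀ inferInstance hY₀K hχ)).toFinset
    with hX
  have cX : (↑X : Set (L → ℂ)) = part K Y₀ Z := Set.Finite.coe_toFinset _
  have hmem : ∀ {χ : L → ℂ}, χ ∈ X ↔ χ ∈ part K Y₀ Z := fun {χ} => Set.Finite.mem_toFinset _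
  have hdX : ∀ χ ∈ X, d χ = K.index * p ^ β χ := fun χ hχ => by
    have h1 := hd χ (hsubU Y₀ inferInstance hY₀K (hmem.1 hχ))
    rw [(hβ χ (hmem.1 hχ).1).1, Nat.cast_inj] at h1
    exact h1.symm
  have hY₀Z : Y₀ ⊓ Z = ⊥ := le_bot_iff.1 ((inf_le_inf_right Z hYW.le).trans hWZ.le)
  have hsum := part_sum Y₀ Z hY₀K hZK hY₀Z (fun χ hχ => hirr χ (hsubU Y₀ inferInstance hY₀K hχ)) X cX d
    fun χ hχ => hd χ (hsubU Y₀ inferInstance hY₀K (hmem.1 hχ))
  set M₀ := (Y₀ ⊔ Z).relIndex K with hM₀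
  have hM₀pos : 0 < M₀ := Nat.pos_of_ne_zero (relIndex_ne_zero_fin _ _)
  have hZ1 : 1 < Nat.card Z := by omega
  have hXne : X.Nonempty := by
    by_contra h
    rw [Finset.not_nonempty_iff_eq_empty] at h
    rw [h, Finset.sum_empty, zero_add] at hsum
    have := Nat.eq_of_mul_eq_mul_left he0 hsum
    nlinarith
  obtain ⟨ψ, hψ, hmin⟩ := X.exists_min_image β hXne
  set Xb : ℕ → Finset (L → ℂ) := fun b => X.filter (fun χ => β χ ≤ b) with hXb
  have hXbU : ∀ b, ↑(Xb b) ⊆ U := fun b χ hχ =>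
    hsubU Y₀ inferInstance hY₀K (hmem.1 (Finset.mem_filter.1 (Finset.mem_coe.1 hχ)).1)
  have hrM : r ∣ M₀ := ⟨(Y₀ ⊔ Z).relIndex (W ⊔ Z), by
    rw [hr, hM₀, mul_comm, Subgroup.relIndex_mul_relIndex _ _ _ (sup_le_sup_right hYW.le Z) (sup_le hWK hZK)]⟩
  have key : ∀ j, IsCoherent (↑(Xb (β ψ + j)) : Set (L → ℂ)) {1}ᶜ τ := by
    intro j
    induction j with
    | zero =>
      refine coherent_constant_degree_irr _ (fun s hs => hirr s (hXbU _ (Finset.mem_coe.2 hs))) ?_ ?_ τ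
        (iso_mono (zspanOn_mono (hXbU _)) hτ) fun α hα => hτ1 α (zspanOn_mono (hXbU _) hα)
      · intro s hs t ht
        obtain ⟨hs1, hs2⟩ := Finset.mem_filter.1 hs
        obtain ⟨ht1, ht2⟩ := Finset.mem_filter.1 ht
        rw [(hβ s (hmem.1 hs1).1).1, (hβ t (hmem.1 ht1).1).1, le_antisymm hs2 (hmin s hs1),
          le_antisymm ht2 (hmin t ht1)]
      · have hψU := hmem.1 hψ
        have hcU : conjFun ψ ∈ part K Y₀ Z := ⟨inducedIrrAbove_conj _ hψU.1,
          fun h => hψU.2 (conjFun_conjFun ψ ▸ inducedIrrAbove_conj _ h)⟩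
        refine Finset.one_lt_card.2 ⟨ψ, ?_, conjFun ψ, ?_,
          (hconj ψ (hsubU Y₀ inferInstance hY₀K hψU)).symm⟩
        · exact Finset.mem_filter.2 ⟨hψ, le_add_right le_rfl⟩
        · refine Finset.mem_filter.2 ⟨hmem.2 hcU, le_of_eq ?_⟩
          have h1 := (hβ _ hcU.1).1
          simp only [conjFun, (hβ ψ hψU.1).1, map_natCast, Nat.cast_inj] at h1
          exact (Nat.pow_right_injective hp.two_le (Nat.eq_of_mul_eq_mul_left he0 h1)).symm
    | succ j ih =>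
      set b := β ψ + j with hb
      set T := X.filter (fun χ => β χ = b + 1) with hT
      have e : Xb b ∪ T = Xb (β ψ + (j + 1)) := by
        ext χ
        simp only [hXb, hT, Finset.mem_union, Finset.mem_filter]
        constructor
        · rintro (⟨h1, h2⟩ | ⟨h1, h2⟩) <;> exact ⟨h1, by omega⟩
        · rintro ⟨h1, h2⟩
          by_cases h3 : β χ ≤ b
          · exact Or.inl ⟨h1, h3⟩
          · exact Or.inr ⟨h1, by omega⟩
      rw [← e]
      refine coherent_grow_irr U hirr τ hτ hτ1 d hd (Xb b) (hXbU b) ih ψ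
        (Finset.mem_filter.2 ⟨hψ, Nat.le_add_right _ _⟩) T
        (fun χ hχ => hsubU Y₀ inferInstance hY₀K (hmem.1 (Finset.mem_filter.1 (Finset.mem_coe.1 hχ)).1))
        fun χ hχ => ?_
      obtain ⟨hχX, hχb⟩ := Finset.mem_filter.1 hχ
      have hdvdZ : p ^ (2 * (b + 1)) ∣ M₀ := (hχb ▸ (hβ χ (hmem.1 hχX).1).2).trans hrM
      rw [hdX ψ hψ, hdX χ hχX, hχb]
      refine ⟨mul_dvd_mul_left _ (pow_dvd_pow p (by omega)), ?_⟩
      set V := ∑ ξ ∈ Xb b, (p ^ β ξ) ^ 2 with hV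
      have hsq : ∑ ξ ∈ Xb b, d ξ ^ 2 = K.index ^ 2 * V := by
        rw [hV, Finset.mul_sum]
        exact Finset.sum_congr rfl fun ξ hξ => by rw [hdX ξ (Finset.mem_filter.1 hξ).1]; ring
      have hVdvd : p ^ (2 * (b + 1)) ∣ V := by
        have hrest : p ^ (2 * (b + 1)) ∣ ∑ ξ ∈ X.filter (fun χ => ¬ β χ ≤ b), d ξ ^ 2 := by
          refine Finset.dvd_sum fun ξ hξ => ?_
          rw [hdX ξ (Finset.mem_filter.1 hξ).1, mul_pow, ← pow_mul]
          exact Dvd.dvd.mul_left (pow_dvd_pow p (by have := (Finset.mem_filter.1 hξ).2; omega)) _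
        rw [← Finset.sum_filter_add_sum_filter_not X (fun χ => β χ ≤ b)] at hsum
        have htot : p ^ (2 * (b + 1)) ∣ (∑ ξ ∈ Xb b, d ξ ^ 2) +
            ((∑ ξ ∈ X.filter (fun χ => ¬ β χ ≤ b), d ξ ^ 2) + K.index * M₀) := by
          rw [← add_assoc, hsum]
          exact Dvd.dvd.mul_left (Dvd.dvd.mul_left hdvdZ _) _
        have h := (Nat.dvd_add_left (dvd_add hrest (hdvdZ.mul_left _))).1 htot
        rw [hsq] at h
        exact (Nat.Coprime.pow _ 2 hcop).dvd_of_dvd_mul_left h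
      have hVpos : 0 < V := Finset.sum_pos (fun ξ _ => by positivity [hp.pos])
        ⟨ψ, Finset.mem_filter.2 ⟨hψ, Nat.le_add_right _ _⟩⟩
      have hVle := Nat.le_of_dvd hVpos hVdvd
      rw [hsq]
      have h3 : 2 * p ^ β ψ < p ^ (b + 1) := by
        calc 2 * p ^ β ψ < p * p ^ β ψ :=
              Nat.mul_lt_mul_of_pos_right (lt_of_le_of_ne hp.two_le (Ne.symm hp2)) (pow_pos hp.pos _)
          _ = p ^ (β ψ + 1) := by rw [pow_succ]; ring
          _ ≤ p ^ (b + 1) := Nat.pow_le_pow_right hp.pos (by omega)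
      calc 2 * (K.index * p ^ β ψ) * (K.index * p ^ (b + 1))
          = K.index ^ 2 * ((2 * p ^ β ψ) * p ^ (b + 1)) := by ring
        _ < K.index ^ 2 * (p ^ (b + 1) * p ^ (b + 1)) :=
            Nat.mul_lt_mul_of_pos_left (Nat.mul_lt_mul_of_pos_right h3 (pow_pos hp.pos _)) (pow_pos he0 2)
        _ ≤ _ := Nat.mul_le_mul_left _ (by rw [← pow_add, ← two_mul]; exact hVle)
  have hfull : Xb (β ψ + X.sup β) = X := Finset.filter_true_of_mem fun χ hχ =>
    le_add_left (Finset.le_sup hχ)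
  have hbase : IsCoherent (part K Y₀ Z) {1}ᶜ τ := cX ▸ hfull ▸ key (X.sup β)
  -- the degree of the anchor
  have hr2 : 2 * r ≤ M₀ := by
    obtain ⟨c, hc⟩ := hrM
    rw [hc, mul_comm 2 r]
    refine Nat.mul_le_mul_left _ ?_
    have hc0 : c ≠ 0 := fun h => hM₀pos.ne' (by rw [hc, h, mul_zero])
    have hc1 : c ≠ 1 := fun h => by
      have e1 := Subgroup.relIndex_mul_relIndex (Y₀ ⊔ Z) (W ⊔ Z) K (sup_le_sup_right hYW.le Z)
        (sup_le hWK hZK)
      rw [← hr, ← hM₀, hc, h, mul_one] at e1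
      have hrpos : 0 < r := Nat.pos_of_ne_zero (relIndex_ne_zero_fin _ _)
      have e2 := Subgroup.relIndex_eq_one.1 ((mul_eq_right₀ hrpos.ne').1 e1)
      refine hYW.not_ge fun w hw => ?_
      obtain ⟨y, hy, z, hz, e3⟩ := Subgroup.mem_sup_of_normal_right.1 (e2 (Subgroup.mem_sup_left hw))
      have : z ∈ W ⊓ Z := ⟨by
        rw [show z = y⁻¹ * w by rw [← e3]; group]
        exact W.mul_mem (W.inv_mem (hYW.le hy)) hw, hz⟩
      rw [hWZ, Subgroup.mem_bot] at this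
      rwa [← e3, this, mul_one]
    omega
  -- descend through the subgroups below `Y₀`
  have hchain := descend_chain hnil (fun Y => IsCoherent (part K Y Z) {1}ᶜ τ) ⊥ Y₀ bot_le hY₀K hbase
    fun A B hA hB _ hBA hAY hcomm hcoh => by
      haveI := hA
      haveI := hB
      have hAK : A ≤ K := hAY.trans hY₀K
      have hBK : B ≤ K := hBA.le.trans hAK
      have hAU := hsubU A hA hAK
      have hBU := hsubU B hB hBK
      set FA := (irr_set_finite (S := part K A Z) fun χ hχ => hirr χ (hAU hχ)).toFinset with hFA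
      set FB := (irr_set_finite (S := part K B Z) fun χ hχ => hirr χ (hBU hχ)).toFinset with hFB
      have cA : (↑FA : Set (L → ℂ)) = part K A Z := Set.Finite.coe_toFinset _
      have cB : (↑FB : Set (L → ℂ)) = part K B Z := Set.Finite.coe_toFinset _
      have hAB : FA ∪ FB = FB := Finset.union_eq_right.2 fun χ hχ =>
        (Set.Finite.mem_toFinset _).2 (part_mono hAK hZK hBA.le ((Set.Finite.mem_toFinset _).1 hχ))
      rw [← cB, ← hAB]
      have hψA : ψ ∈ FA := (Set.Finite.mem_toFinset _).2 (part_mono hY₀K hZK hAY (hmem.1 hψ))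
      refine coherent_grow_irr U hirr τ hτ hτ1 d hd FA (cA ▸ hAU) (cA ▸ hcoh) ψ hψA FB (cB ▸ hBU)
        fun χ hχ => ?_
      have hχB := (Set.Finite.mem_toFinset _).1 hχ
      obtain ⟨n, hn, hn2⟩ := hdeg hA hB hBA.le hAK
        (fun a ha k hk => hcomm (Subgroup.commutator_mem_commutator ha hk)) χ hχB.1
      have hdχ : d χ = K.index * n := by
        have h1 := hd χ (hBU hχB)
        rw [hn, Nat.cast_inj] at h1
        exact h1.symm
      have hsA := part_sum A Z hAK hZK (le_bot_iff.1 ((inf_le_inf_right Z (hAY.trans hYW.le)).trans hWZ.le))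
        (fun χ hχ => hirr χ (hAU hχ)) FA cA d fun χ hχ => hd χ (hAU (cA ▸ Finset.mem_coe.2 hχ))
      set MA := (A ⊔ Z).relIndex K with hMA
      have hM₀A : M₀ ≤ MA := Nat.le_of_dvd (Nat.pos_of_ne_zero (relIndex_ne_zero_fin _ _))
        ⟨(A ⊔ Z).relIndex (Y₀ ⊔ Z), by
          rw [hM₀, hMA, mul_comm, Subgroup.relIndex_mul_relIndex _ _ _ (sup_le_sup_right hAY Z)
            (sup_le hY₀K hZK)]⟩
      have hf : (p ^ β ψ) ^ 2 < MA := by
        rw [← pow_mul, mul_comm]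
        have hrpos : 0 < r := Nat.pos_of_ne_zero (relIndex_ne_zero_fin _ _)
        have := Nat.le_of_dvd hrpos (hβ ψ (hmem.1 hψ).1).2
        omega
      have hfn : p ^ β ψ * n < MA := by
        by_contra hge
        push Not at hge
        have h1 := Nat.mul_le_mul hge hge
        nlinarith [Nat.mul_le_mul_left ((p ^ β ψ) ^ 2) hn2]
      rw [hdX ψ hψ, hdχ]
      refine ⟨mul_dvd_mul_left _ ?_, ?_⟩
      · obtain ⟨ψ', hψ', m, hm, hmn⟩ := exists_anchor_dvd P W Y₀ Z hPK hWK hPW hsup hYW.le hZP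
          (hBU hχB).1 (hBU hχB).2 hn
        rw [(hβ ψ' hψ'.1).1, Nat.cast_inj] at hm
        have hm' := Nat.eq_of_mul_eq_mul_left he0 hm
        exact ((pow_dvd_pow p (hmin ψ' (hmem.2 hψ'))).trans (hm' ▸ dvd_rfl)).trans hmn
      · have hFA2 : K.index * ((2 * K.index) * MA) + K.index * MA ≤
            (∑ ξ ∈ FA, d ξ ^ 2) + K.index * MA := by
          rw [hsA, ← mul_add, ← add_one_mul]
          exact Nat.mul_le_mul_left _ (Nat.mul_le_mul_right _ hbig)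
        calc 2 * (K.index * p ^ β ψ) * (K.index * n)
            = K.index * ((2 * K.index) * (p ^ β ψ * n)) := by ring
          _ < K.index * ((2 * K.index) * MA) :=
              Nat.mul_lt_mul_of_pos_left (Nat.mul_lt_mul_of_pos_left hfn (by omega)) he0
          _ ≤ _ := by omega
  rwa [part_bot] at hchain

end Cfsg.Agent.H60.SECore
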