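import Cfsg.Agent.H60.SECore.EndgameValues
import Cfsg.Agent.H57.TIInd
import Cfsg.Agent.H57.CohUnion
import Cfsg.Agent.H33.Nilpotent

/-!
The endgame for the core of a strongly embedded subgroup: a nilpotent trivial-intersection regular normal
subgroup of `H` with index one less than the degree, several conjugate central involutions and an odd
prime divisor is impossible.
-/

set_option autoImplicit false
set_option linter.unusedSectionVars false

namespace Cfsg.Agent.H60.SECore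

open Cfsg Cfsg.Agent

open scoped Classical in
/-- No nilpotent trivial-intersection subgroup with several central involutions and an odd prime divisor
has index one more than its order in its normaliser. -/
theorem endgame {G : Type*} [Group G] [Finite G] (H C D : Subgroup G) (hCH : C ≤ H) (hDH : D ≤ H)
    (hnorm : H ≤ Subgroup.normalizer (C : Set G)) (hinf : C ⊓ D = ⊥) (hsup : C ⊔ D = H)
    (hTI : ∀ g, g ∉ H → ∀ x ∈ C, g * x * g⁻¹ ∈ C → x = 1)
    (hindex : H.index = Nat.card C + 1) (hnil : Group.IsNilpotent C)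
    (hIC : ∀ i ∈ H, orderOf i = 2 → i ∈ C)
    (hIcen : ∀ i ∈ H, orderOf i = 2 → ∀ x ∈ C, i * x = x * i)
    (htrans : ∀ s ∈ H, orderOf s = 2 → ∀ t ∈ H, orderOf t = 2 → ∃ d ∈ D, d * s * d⁻¹ = t)
    (htwo : ∃ s ∈ H, ∃ t ∈ H, orderOf s = 2 ∧ orderOf t = 2 ∧ s ≠ t)
    (hD : Odd (Nat.card D))
    (hfpf : ∀ d ∈ D, d ≠ 1 → ∀ x ∈ C, Odd (orderOf x) → d * x = x * d → x = 1)
    (hX : ∃ p, p.Prime ∧ p ≠ 2 ∧ p ∣ Nat.card C) : False := by
  haveI := Fintype.ofFinite G
  haveI : Fintype H := Fintype.ofFinite H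
  obtain ⟨p, hp, hp2, hpC⟩ := hX
  haveI := Fact.mk hp
  set K : Subgroup H := C.subgroupOf H with hKdef
  set D' : Subgroup H := D.subgroupOf H with hD'def
  haveI hKn : K.Normal := Subgroup.normal_subgroupOf_of_le_normalizer hnorm
  haveI := hnil
  haveI hKnil : Group.IsNilpotent K :=
    Group.nilpotent_of_mulEquiv (Subgroup.subgroupOfEquivOfLe hCH).symm
  have hKC : Nat.card K = Nat.card C := Nat.card_congr (Subgroup.subgroupOfEquivOfLe hCH).toEquiv
  have hD'D : Nat.card D' = Nat.card D := Nat.card_congr (Subgroup.subgroupOfEquivOfLe hDH).toEquiv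
  have hKD : K ⊔ D' = ⊤ := by
    rw [hKdef, hD'def, ← Subgroup.subgroupOf_sup hCH hDH, hsup, Subgroup.subgroupOf_self]
  have hKDinf : K ⊓ D' = ⊥ := by
    refine (Subgroup.eq_bot_iff_forall _).2 fun x hx => ?_
    have : (x : G) ∈ C ⊓ D := ⟨Subgroup.mem_subgroupOf.1 hx.1, Subgroup.mem_subgroupOf.1 hx.2⟩
    rw [hinf, Subgroup.mem_bot] at this
    exact Subtype.ext this
  have hidx : K.index = Nat.card D' := by
    have hc := Subgroup.isComplement'_of_disjoint_and_mul_eq_univ (disjoint_iff.2 hKDinf)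
      (by rw [← Subgroup.normal_mul, hKD]; rfl)
    exact Nat.eq_of_mul_eq_mul_left Nat.card_pos (K.card_mul_index.trans hc.card_mul.symm)
  have hidxodd : Odd K.index := by rw [hidx, hD'D]; exact hD
  -- involutions
  have h2C : ∀ {x : H}, x * x = 1 → x ∈ K ∧ ∀ k ∈ K, x * k = k * x := by
    intro x hx
    by_cases h1 : x = 1
    · subst h1; exact ⟨K.one_mem, fun k _ => by simp⟩
    have ho : orderOf (x : G) = 2 := by
      rw [Subgroup.orderOf_coe]; exact orderOf_eq_prime (by rw [pow_two]; exact hx) h1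
    exact ⟨hIC x x.2 ho, fun k hk => Subtype.ext (hIcen x x.2 ho k hk)⟩
  let A : Subgroup H :=
    { carrier := {x | x * x = 1}
      mul_mem' := fun {a b} ha hb => by
        have hab : a * b = b * a := (h2C ha).2 b (h2C hb).1
        show a * b * (a * b) = 1
        calc a * b * (a * b) = a * (b * a) * b := by group
          _ = (a * a) * (b * b) := by rw [← hab]; group
          _ = 1 := by rw [show a * a = 1 from ha, show b * b = 1 from hb, one_mul]
      one_mem' := mul_one 1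
      inv_mem' := fun {a} ha => by
        show a⁻¹ * a⁻¹ = 1
        rw [← mul_inv_rev, show a * a = 1 from ha, inv_one] }
  haveI hAn : A.Normal := ⟨fun a ha g => by
    show g * a * g⁻¹ * (g * a * g⁻¹) = 1
    rw [show g * a * g⁻¹ * (g * a * g⁻¹) = g * (a * a) * g⁻¹ by group, show a * a = 1 from ha, mul_one,
      mul_inv_cancel]⟩
  obtain ⟨s₀, hs₀, t₀, ht₀, hos, hot, hst⟩ := htwo
  set t : H := ⟨t₀, ht₀⟩ with htdef
  have htt : t * t = 1 := Subtype.ext (by
    have := pow_orderOf_eq_one t₀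
    rwa [hot, pow_two] at this)
  have ht1 : t ≠ 1 := fun e => by
    have : t₀ = 1 := congrArg Subtype.val e
    rw [this, orderOf_one] at hot
    omega
  have htK : t ∈ K := (h2C htt).1
  have hcl : ∀ i : H, IsConj t i ↔ i * i = 1 ∧ i ≠ 1 := by
    intro i
    constructor
    · intro h
      obtain ⟨c, rfl⟩ := isConj_iff.1 h
      exact ⟨hAn.conj_mem t htt c,
        fun e => ht1 (by simpa using e)⟩
    · rintro ⟨hi, hi1⟩
      obtain ⟨d, hd, e⟩ := htrans t₀ ht₀ hot i i.2 (by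
        rw [Subgroup.orderOf_coe]; exact orderOf_eq_prime (by rw [pow_two]; exact hi) hi1)
      exact isConj_iff.2 ⟨⟨d, hDH hd⟩, Subtype.ext e⟩
  have hA : ∀ a : H, a ∈ A ↔ a = 1 ∨ IsConj t a := fun a => by
    rw [hcl]
    show a * a = 1 ↔ _
    by_cases h : a = 1 <;> simp [h]
  set T : Finset H := Finset.univ.filter (IsConj t) with hT
  have hm : 3 ≤ T.card := by
    set s : H := ⟨s₀, hs₀⟩ with hsdef
    have hss : s * s = 1 := Subtype.ext (by
      have := pow_orderOf_eq_one s₀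
      rwa [hos, pow_two] at this)
    have hs1 : s ≠ 1 := fun e => by
      have : s₀ = 1 := congrArg Subtype.val e
      rw [this, orderOf_one] at hos
      omega
    have hne : s ≠ t := fun e => hst (congrArg Subtype.val e)
    have hst1 : s * t ≠ 1 := fun e => hne (by
      rw [eq_inv_of_mul_eq_one_left e, inv_eq_of_mul_eq_one_right htt])
    have h3 : ({s, t, s * t} : Finset H).card = 3 := by
      rw [Finset.card_insert_of_notMem (by simp [hne, ht1]), Finset.card_pair (by simp [hs1])]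
    rw [← h3]
    refine Finset.card_le_card fun x hx => Finset.mem_filter.2 ⟨Finset.mem_univ _, (hcl x).2 ?_⟩
    simp only [Finset.mem_insert, Finset.mem_singleton] at hx
    rcases hx with rfl | rfl | rfl
    exacts [⟨hss, hs1⟩, ⟨htt, ht1⟩, ⟨A.mul_mem hss htt, hst1⟩]
  have hmD : T.card ≤ Nat.card D' := by
    have hsub : T ⊆ (Finset.univ : Finset D').image (fun d : D' => (d : H) * t * (d : H)⁻¹) := by
      intro i hi
      obtain ⟨hi2, hi1⟩ := (hcl i).1 (Finset.mem_filter.1 hi).2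
      obtain ⟨d, hd, e⟩ := htrans t₀ ht₀ hot i i.2 (by
        rw [Subgroup.orderOf_coe]; exact orderOf_eq_prime (by rw [pow_two]; exact hi2) hi1)
      exact Finset.mem_image.2 ⟨⟨⟨d, hDH hd⟩, hd⟩, Finset.mem_univ _, Subtype.ext e⟩
    refine (Finset.card_le_card hsub).trans (Finset.card_image_le.trans ?_)
    rw [Finset.card_univ, Nat.card_eq_fintype_card]
  -- the parts of the kernel
  set P := H33.pPart p K with hPdef
  set W := H33.pCoPart p K with hWdef
  have hPK : P ≤ K := H33.pPart_le p K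
  have hWK : W ≤ K := H33.pCoPart_le p K
  have hKtop : Subgroup.normalizer (K : Set H) = ⊤ := Subgroup.normalizer_eq_top_iff.2 hKn
  haveI hPn : P.Normal := Subgroup.normalizer_eq_top_iff.1
    (top_unique (hKtop ▸ H33.normalizer_le_normalizer_pPart p K))
  haveI hWn : W.Normal := Subgroup.normalizer_eq_top_iff.1
    (top_unique (hKtop ▸ H33.normalizer_le_normalizer_pCoPart p K))
  have hPp : IsPGroup p P := H33.isPGroup_pPart
  have hWcop : (Nat.card W).Coprime p := H33.card_pCoPart_coprime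
  have hPW : P ⊔ W = K := H33.pPart_sup_pCoPart hKnil
  have hPWinf : P ⊓ W = ⊥ := H19.inf_eq_bot_of_isPGroup_coprime hPp hWcop
  obtain ⟨f, hf⟩ := hPp.exists_card_eq
  have hf0 : f ≠ 0 := by
    intro h0
    have h := H33.card_parts_mul (p := p) hKnil
    rw [← hPdef, hf, h0, pow_zero, one_mul, hKC] at h
    have : p ∣ 1 := (Nat.Coprime.eq_one_of_dvd hWcop.symm (h ▸ hpC)) ▸ dvd_refl p
    exact hp.not_dvd_one this
  have hWp : ∃ n, W.relIndex K = p ^ n := ⟨f, by
    have h := H33.card_parts_mul (p := p) hKnil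
    have h2 := Subgroup.relIndex_mul_relIndex ⊥ W K bot_le hWK
    rw [Subgroup.relIndex_bot_left, Subgroup.relIndex_bot_left, ← h, ← hPdef, ← hWdef, hf,
      mul_comm (p ^ f)] at h2
    exact Nat.eq_of_mul_eq_mul_left Nat.card_pos h2⟩
  -- the centre of the `p`-part
  haveI : Nontrivial P := Finite.one_lt_card_iff_nontrivial.1 (hf ▸ Nat.one_lt_pow hf0 hp.one_lt)
  haveI := hPp.center_nontrivial
  set Z : Subgroup H := (Subgroup.center P).map P.subtype with hZdef
  have hPtop : Subgroup.normalizer (P : Set H) = ⊤ := Subgroup.normalizer_eq_top_iff.2 hPn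
  haveI hZn : Z.Normal := Subgroup.normalizer_eq_top_iff.1
    (top_unique (hPtop ▸ H33.normalizer_le_normalizer_map Subgroup.centerCharacteristic))
  have hZP : Z ≤ P := Subgroup.map_subtype_le _
  have hZK : Z ≤ K := hZP.trans hPK
  have hZc : ∀ z ∈ Z, ∀ k ∈ K, z * k = k * z := by
    rintro _ ⟨c, hc, rfl⟩ k hk
    obtain ⟨a, ha, w, hw, rfl⟩ := Subgroup.mem_sup_of_normal_right.1 (hPW.ge hk)
    have h1 : (c : H) * a = a * c := congrArg Subtype.val (Subgroup.mem_center_iff.1 hc ⟨a, ha⟩).symm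
    have h2 : (c : H) * w = w * c := H33.commute_parts c.2 hw
    rw [Subgroup.coe_subtype, ← mul_assoc, h1, mul_assoc, h2, ← mul_assoc]
  have hZcard : Nat.card Z = Nat.card (Subgroup.center P) := Subgroup.card_subtype _ _
  have hZ1 : 1 < Nat.card Z := hZcard ▸ Finite.one_lt_card
  have hZodd : Odd (Nat.card Z) :=
    (hp.odd_of_ne_two hp2).pow.of_dvd_nat ((hf ▸ Subgroup.card_dvd_of_le hZP : Nat.card Z ∣ p ^ f))
  have hZfpf : ∀ d ∈ D', d ≠ 1 → ∀ z ∈ Z, d * z = z * d → z = 1 := by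
    intro d hd hd1 z hz e
    refine Subtype.ext (hfpf d hd (fun h => hd1 (Subtype.ext h)) z (hZK hz) ?_ (congrArg Subtype.val e))
    rw [Subgroup.orderOf_coe]
    refine Odd.of_dvd_nat hZodd ?_
    simpa using orderOf_dvd_natCard (⟨z, hz⟩ : Z)
  have hdvd : Nat.card D' ∣ Nat.card Z - 1 := by
    letI : MulAction D' {z : Z // z ≠ 1} :=
      { smul := fun d z => ⟨⟨(d : H) * (z.1 : H) * (d : H)⁻¹, hZn.conj_mem _ z.1.2 d⟩, fun e => z.2 (by
          have := congrArg Subtype.val e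
          exact Subtype.ext (by simpa using this))⟩
        one_smul := fun z => by
          refine Subtype.ext (Subtype.ext ?_)
          show ((1 : D') : H) * (z.1 : H) * ((1 : D') : H)⁻¹ = (z.1 : H)
          simp
        mul_smul := fun a b z => by
          refine Subtype.ext (Subtype.ext ?_)
          show ((a * b : D') : H) * (z.1 : H) * ((a * b : D') : H)⁻¹ =
            (a : H) * ((b : H) * (z.1 : H) * (b : H)⁻¹) * (a : H)⁻¹
          simp [mul_assoc] }
    have h := H57.index_dvd_card_of_stabilizer_le (⊥ : Subgroup D') (X := {z : Z // z ≠ 1}) fun z d hd => by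
      rw [Subgroup.mem_bot]
      by_contra hd1
      have e : (d : H) * (z.1 : H) * (d : H)⁻¹ = z.1 :=
        congrArg (fun w : {z : Z // z ≠ 1} => (w.1 : H)) hd
      exact z.2 (Subtype.ext (hZfpf d d.2 (fun h => hd1 (Subtype.ext h)) z.1 z.1.2
        (mul_inv_eq_iff_eq_mul.1 e)))
    rw [Subgroup.index_bot] at h
    rwa [Nat.card_eq_fintype_card, Nat.card_eq_fintype_card, Fintype.card_subtype_compl,
      Fintype.card_subtype_eq, ← Nat.card_eq_fintype_card, ← Nat.card_eq_fintype_card] at h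
  have hbig : 2 * K.index < Nat.card Z := by
    rw [hidx]
    have h2 : 2 ∣ Nat.card Z - 1 := by obtain ⟨j, hj⟩ := hZodd; exact ⟨j, by omega⟩
    have hco : Nat.Coprime 2 (Nat.card D') := Nat.coprime_two_left.2 (hidx ▸ hidxodd)
    have := Nat.le_of_dvd (by omega) (hco.mul_dvd_of_dvd_of_dvd h2 hdvd)
    omega
  have hcop : p.Coprime K.index := by
    refine hp.coprime_iff_not_dvd.2 fun h => hp.not_dvd_one ?_
    rw [hidx] at h
    obtain ⟨j, -, hj⟩ := (Nat.dvd_prime_pow hp).1 (hf ▸ Subgroup.card_dvd_of_le hZP : Nat.card Z ∣ p ^ f)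
    have hpz : p ∣ Nat.card Z := hj ▸ dvd_pow_self p (fun h0 => by rw [h0, pow_zero] at hj; omega)
    have := Nat.dvd_sub hpz (h.trans hdvd)
    rwa [Nat.sub_sub_self (by omega)] at this
  -- the derived subgroup of the complement
  have htW : t ∈ W := H33.mem_pCoPart hKnil htK (by
    rw [show orderOf t = 2 from orderOf_eq_prime (by rw [pow_two]; exact htt) ht1]
    exact (Nat.coprime_primes Nat.prime_two hp).2 (Ne.symm hp2))
  haveI : Nontrivial W := ⟨⟨⟨t, htW⟩, 1, fun e => ht1 (congrArg Subtype.val e)⟩⟩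
  haveI : Group.IsNilpotent W := Group.nilpotent_of_mulEquiv (Subgroup.subgroupOfEquivOfLe hWK)
  set Y₀ : Subgroup H := ⁅W, W⁆ with hY₀def
  have hYW : Y₀ < W := by
    refine lt_of_le_of_ne (Subgroup.commutator_le_self W) fun e => ?_
    refine (IsSolvable.commutator_lt_top_of_nontrivial W).ne (Subgroup.map_injective W.subtype_injective ?_)
    rw [Subgroup.map_subtype_commutator, ← MonoidHom.range_eq_map, W.range_subtype]
    exact e
  have hWc : ∀ w ∈ W, ∀ k ∈ K, w * k * w⁻¹ * k⁻¹ ∈ Y₀ := by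
    intro w hw k hk
    obtain ⟨a, ha, v, hv, rfl⟩ := Subgroup.mem_sup_of_normal_right.1 (hPW.ge hk)
    have h2 : a * w = w * a := H33.commute_parts ha hw
    rw [show w * (a * v) * w⁻¹ * (a * v)⁻¹ = a * (w * v * w⁻¹ * v⁻¹) * a⁻¹ by
      rw [← mul_assoc w a v, ← h2]; group]
    exact (inferInstance : Y₀.Normal).conj_mem _ (Subgroup.commutator_mem_commutator hw hv) a
  have hWZ : W ⊓ Z = ⊥ := le_bot_iff.1 ((inf_le_inf_left W hZP).trans (inf_comm W P ▸ hPWinf).le)
  -- induced characters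
  have hTIset : IsTISubset (C : Set G) := by
    intro g hg
    exact hTI g fun hgH => hg (hnorm hgH)
  have hNC : Subgroup.normalizer (C : Set G) = H := by
    refine le_antisymm (fun g hg => ?_) hnorm
    by_contra hgH
    have h := hTI g hgH t₀ (hIC t₀ ht₀ hot) ((Subgroup.mem_normalizer_iff.1 hg t₀).1 (hIC t₀ ht₀ hot))
    exact ht1 (Subtype.ext h)
  have hirr : ∀ χ ∈ inducedIrrAbove K ⊥ \ inducedIrrAbove K Z, IsIrrCharacter H χ :=
    fun χ hχ => part_irr hZK hKD hZc hZfpf hχ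
  have hoff : ∀ χ ∈ inducedIrrAbove K ⊥ \ inducedIrrAbove K Z, ∀ x : H, (x : G) ∉ C → χ x = 0 :=
    fun χ hχ x hx => H57.induced_off C H hχ.1 x hx
  obtain ⟨hτ, hτ1⟩ := H57.ti_ind_iso (L := H) hTIset hNC (inducedIrrAbove K ⊥ \ inducedIrrAbove K Z)
    (fun χ hχ => H26.isCharacter_of_irr (hirr χ hχ)) hoff
  obtain ⟨-, τ₁, hτ₁, hext⟩ := part_coherent hp hp2 hcop hKnil P W Y₀ Z hPK hPWinf hPW hZP hWK hWp hYW
    hWc hZK hZc hWZ hbig hirr (fun χ hχ => part_conj_ne hZK hKD hZc hZfpf hidxodd hZodd hχ)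
    (fun α => indFun H α) hτ hτ1
  obtain ⟨εc, hεc, hεirr, hεinj⟩ := H57.iso_irr_sign hirr hτ₁ fun α hα h1 => by
    rw [hext α (H57.mem_degZero.2 ⟨hα, h1⟩)]
    exact hτ1 α (H57.mem_degZero.2 ⟨hα, h1⟩)
  obtain ⟨ε, hε, rfl⟩ : ∃ r : ℝ, (r = 1 ∨ r = -1) ∧ εc = (r : ℂ) := by
    rcases hεc with h | h
    · exact ⟨1, Or.inl rfl, by simp [h]⟩
    · exact ⟨-1, Or.inr rfl, by simp [h]⟩
  have hε2 : (ε : ℂ) * ε = 1 := by rcases hε with rfl | rfl <;> norm_num
  have hmemU : ∀ ψ : IrrCharacter H, ¬ Z ≤ H44.kerOf ψ →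
      ψ.1 ∈ inducedIrrAbove K ⊥ \ inducedIrrAbove K Z := by
    intro ψ hψ
    rw [H57.central_part_set Z hZK hirr]
    obtain ⟨z, hz, hne⟩ := SetLike.not_le_iff_exists.1 hψ
    exact ⟨ψ.2, z, hz, fun e => hne (H44.mem_kerOf.2 e)⟩
  let Φ : IrrCharacter H → IrrCharacter G := fun ψ =>
    if h : ¬ Z ≤ H44.kerOf ψ then ⟨(ε : ℂ) • τ₁ ψ.1, hεirr _ (hmemU ψ h)⟩ else H26.oneIrr G
  have hΦ : ∀ ψ : IrrCharacter H, ¬ Z ≤ H44.kerOf ψ → (Φ ψ).1 = (ε : ℂ) • τ₁ ψ.1 := fun ψ h => by
    simp only [Φ, dif_pos h]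
  have hZ2 : ∀ w : H, w * w = 1 → w ∈ Z → w = 1 := by
    intro w hw hwZ
    refine orderOf_eq_one_iff.1 ?_
    have h2 : orderOf w ∣ 2 := orderOf_dvd_of_pow_eq_one (by rw [pow_two]; exact hw)
    have hodd : Odd (orderOf w) := Odd.of_dvd_nat hZodd (by simpa using orderOf_dvd_natCard (⟨w, hwZ⟩ : Z))
    rcases (Nat.dvd_prime Nat.prime_two).1 h2 with h | h
    · exact h
    · rw [h] at hodd; exact absurd hodd (by decide)
  have hinvG : ∀ u : G, IsConj t₀ u → u * u = 1 ∧ u ≠ 1 := by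
    intro u hu
    obtain ⟨c, rfl⟩ := isConj_iff.1 hu
    refine ⟨?_, fun e => ht1 (Subtype.ext (show t₀ = 1 by simpa using e))⟩
    rw [show c * t₀ * c⁻¹ * (c * t₀ * c⁻¹) = c * (t₀ * t₀) * c⁻¹ by group,
      show t₀ * t₀ = 1 from congrArg Subtype.val htt, mul_one, mul_inv_cancel]
  refine endgame_values H K Z t htt A hA ht1 hm ?_ ?_ ?_ ?_ ?_ ?_ ?_ ?_ Φ ε hε ?_ ?_ ?_
  · change 2 * T.card + 1 ≤ Nat.card Z
    rw [hidx] at hbig
    omega
  · intro i hi hiZ
    exact ((hcl i).1 hi).2 (hZ2 i ((hcl i).1 hi).1 hiZ)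
  · intro i j hi hj hij
    exact inv_mul_eq_one.1 (hZ2 _ (A.mul_mem (A.inv_mem ((hcl i).1 hi).1) ((hcl j).1 hj).1) hij)
  · intro c hc
    by_contra hcH
    refine ht1 (Subtype.ext (hTI c hcH t₀ (hIC t₀ ht₀ hot) ?_))
    rw [show c * t₀ * c⁻¹ = t₀ by rw [hc, mul_inv_cancel_right]]
    exact hIC t₀ ht₀ hot
  · intro x hx hmem
    obtain ⟨h2, h1⟩ := hinvG (x⁻¹ * t₀ * x) (isConj_iff.2 ⟨x⁻¹, by rw [inv_inv]⟩)
    refine ht1 (Subtype.ext (hTI x⁻¹ (fun h => hx (inv_mem_iff.1 h)) t₀ (hIC t₀ ht₀ hot) ?_))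
    rw [inv_inv]
    exact hIC _ hmem (orderOf_eq_prime (by rw [pow_two]; exact h2) h1)
  · intro i hi
    obtain ⟨h2, h1⟩ := hinvG i hi
    exact (hcl i).2 ⟨Subtype.ext h2, fun e => h1 (congrArg Subtype.val e)⟩
  · intro u v hu hv huv hK hne
    obtain ⟨hu2, -⟩ := hinvG u hu
    obtain ⟨hv2, -⟩ := hinvG v hv
    have hui : u⁻¹ = u := inv_eq_of_mul_eq_one_right hu2
    have hvi : v⁻¹ = v := inv_eq_of_mul_eq_one_right hv2
    have huH : u ∈ H := by
      by_contra h
      refine hne (hTI u h (u * v) hK ?_)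
      rw [show u * (u * v) * u⁻¹ = (u * v)⁻¹ by
        rw [← mul_assoc, hu2, one_mul, mul_inv_rev, hvi]]
      exact C.inv_mem hK
    refine ⟨huH, ?_⟩
    rw [show v = u⁻¹ * (u * v) by rw [inv_mul_cancel_left]]
    exact H.mul_mem (H.inv_mem huH) huv
  · -- the degree
    have hinj : Function.Injective fun q : A × Z => (⟨(q.1 : H) * q.2,
        K.mul_mem (h2C q.1.2).1 (hZK q.2.2)⟩ : K) := by
      rintro ⟨a, z⟩ ⟨b, w⟩ e
      have e' : (a : H) * z = b * w := congrArg Subtype.val e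
      have h : (b : H)⁻¹ * a = w * (z : H)⁻¹ := by
        rw [eq_mul_inv_iff_mul_eq, mul_assoc, e', inv_mul_cancel_left]
      have h1 := hZ2 _ (A.mul_mem (A.inv_mem b.2) a.2) (h ▸ Z.mul_mem w.2 (Z.inv_mem z.2))
      have hab : a = b := Subtype.ext (inv_mul_eq_one.1 h1).symm
      subst hab
      exact Prod.ext rfl (Subtype.ext (mul_left_cancel e'))
    have h1 := Nat.card_le_card_of_injective _ hinj
    rw [Nat.card_prod, hKC] at h1
    have h4 : T.card + 1 ≤ Nat.card A := by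
      rw [Nat.card_eq_fintype_card, Fintype.card_subtype]
      rw [← Finset.card_insert_of_notMem (show (1 : H) ∉ T from fun h => ((hcl 1).1 (Finset.mem_filter.1 h).2).2 rfl)]
      refine Finset.card_le_card fun a ha => Finset.mem_filter.2 ⟨Finset.mem_univ _, (hA a).2 ?_⟩
      simpa [hT] using ha
    have h7 : 7 ≤ Nat.card Z := by
      have : 2 ∣ Nat.card Z - 1 := by obtain ⟨j, hj⟩ := hZodd; exact ⟨j, by omega⟩
      rw [hidx] at hbig
      omega
    have := Nat.mul_le_mul (le_trans (by omega : 4 ≤ T.card + 1) h4) h7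
    rw [hindex]
    omega
  · intro a ha b hb e
    have e' := congrArg Subtype.val e
    rw [hΦ a ha, hΦ b hb] at e'
    refine Subtype.ext (hεinj _ (hmemU a ha) _ (hmemU b hb) (funext fun g => ?_))
    exact mul_left_cancel₀ (left_ne_zero_of_mul (hε2.trans_ne one_ne_zero)) (congrFun e' g)
  · exact fun ψ hψ x hx => hoff _ (hmemU ψ hψ) x hx
  · intro ψ ψ' hψ hψ' a b ha hb g
    have hz1 := H57.zspan_zsmul (H57.zspan_subset_of_mem (hmemU ψ hψ)) (b : ℤ)
    have hz2 := H57.zspan_zsmul (H57.zspan_subset_of_mem (hmemU ψ' hψ')) (a : ℤ)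
    have hα : (fun h => (b : ℂ) * ψ.1 h - (a : ℂ) * ψ'.1 h) = (b : ℤ) • ψ.1 - (a : ℤ) • ψ'.1 := by
      funext h
      simp [zsmul_eq_mul]
    have h0 := congrFun (hext _ (H57.mem_degZero.2 ⟨H57.zspan_sub hz1 hz2,
      by simp [zsmul_eq_mul, ha, hb, mul_comm]⟩)) g
    rw [H57.iso_zspan_sub hτ₁ hz1 hz2, hτ₁.2.1 _ (H57.zspan_subset_of_mem (hmemU ψ hψ)) b,
      hτ₁.2.1 _ (H57.zspan_subset_of_mem (hmemU ψ' hψ')) a] at h0
    rw [hα]
    refine h0.symm.trans ?_
    rw [hΦ ψ hψ, hΦ ψ' hψ']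
    simp only [Pi.sub_apply, Pi.smul_apply, zsmul_eq_mul, Pi.mul_apply, Pi.intCast_apply, Int.cast_natCast,
      smul_eq_mul]
    linear_combination -((b : ℂ) * τ₁ ψ.1 g - (a : ℂ) * τ₁ ψ'.1 g) * hε2

end Cfsg.Agent.H60.SECore
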