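import Cfsg.Agent.H57.VChar
import Cfsg.Agent.H25.CharInd
import Cfsg.Agent.H38.ClassCoeff
import Cfsg.Agent.H44.Inflation
import Cfsg.Agent.H57.InducedSet

/-!
Character facts for the endgame: central values, sums over the characters nontrivial on a normal subgroup,
and involution pairs.
-/

set_option autoImplicit false
set_option linter.unusedSectionVars false

namespace Cfsg.Agent.H60.SECore

open scoped ComplexConjugate
open Cfsg Cfsg.Agent

section Central

variable {K : Type*} [Group K] [Finite K]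

/-- Equal values at two central elements put their quotient in the kernel. -/
theorem central_quot {θ : K → ℂ} (hθ : IsIrrCharacter K θ) {u v : K} (hu : ∀ k, u * k = k * u)
    (hv : ∀ k, v * k = k * v) (h : θ u = θ v) : θ (u * v⁻¹) = θ 1 := by
  classical
  haveI := Fintype.ofFinite K
  obtain ⟨n, ρ, hρ, rfl⟩ := hθ
  haveI := hρ
  have hsc : ∀ w : K, (∀ k, w * k = k * w) →
      ρ w = (ρ.character w / (Module.finrank ℂ (Fin n → ℂ) : ℂ)) • (LinearMap.id : (Fin n → ℂ) →ₗ[ℂ] _) := by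
    intro w hw
    refine H25.eq_smul_id_of_comm ρ (ρ w) fun g => ?_
    rw [← Module.End.mul_eq_comp, ← Module.End.mul_eq_comp, ← map_mul, ← map_mul, hw g]
  have e : ρ u = ρ v := by rw [hsc u hu, hsc v hv, h]
  have : ρ (u * v⁻¹) = ρ 1 := by rw [map_mul, e, ← map_mul, mul_inv_cancel]
  simp only [Representation.character, this]

end Central

variable {L : Type*} [Group L] [Fintype L]

open scoped Classical in
/-- A sum over the irreducible characters nontrivial on `Z`. -/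
theorem sum_nontrivial_on (Z : Subgroup L) [Z.Normal] [Fintype (L ⧸ Z)] (g h : L) :
    ∑ ψ ∈ Finset.univ.filter (fun ψ : IrrCharacter L => ¬ Z ≤ H44.kerOf ψ), ψ.1 g * conj (ψ.1 h) =
      (Nat.card (Subgroup.centralizer ({h} : Set L)) : ℂ) * H26.classIndicator h g -
      (Nat.card (Subgroup.centralizer ({(h : L ⧸ Z)} : Set (L ⧸ Z))) : ℂ) *
        H26.classIndicator (h : L ⧸ Z) (g : L ⧸ Z) := by
  rw [← H26.column_orthogonality, ← H26.column_orthogonality (g : L ⧸ Z) (h : L ⧸ Z), eq_sub_iff_add_eq]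
  have e : ∑ ψ : IrrCharacter (L ⧸ Z), ψ.1 (g : L ⧸ Z) * conj (ψ.1 (h : L ⧸ Z)) =
      ∑ ψ ∈ Finset.univ.filter (fun ψ : IrrCharacter L => Z ≤ H44.kerOf ψ), ψ.1 g * conj (ψ.1 h) := by
    refine Finset.sum_nbij (H44.inflate Z) (fun ψ _ => ?_) (fun a _ b _ h => H44.inflate_injective Z h)
      (fun ψ hψ => ?_) (fun ψ _ => rfl)
    · simp only [Finset.mem_filter, Finset.mem_univ, true_and]
      exact H44.le_kerOf_inflate Z ψ
    · obtain ⟨ψ', e⟩ := H44.exists_eq_inflate Z ψ (Finset.mem_filter.1 hψ).2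
      exact ⟨ψ', Finset.mem_univ _, e⟩
  rw [e, add_comm, Finset.sum_filter_add_sum_filter_not]

variable {G : Type*} [Group G] [Fintype G]

/-- Induced functions over pairs of a class which meets a TI set only inside the subgroup. -/
theorem sum_pairs_ind (H : Subgroup G) [Fintype H] (α : H → ℂ) (S : Finset G) (T : Finset H)
    (hS : ∀ g x : G, x ∈ S → g * x * g⁻¹ ∈ S) (hT : ∀ i : H, i ∈ T ↔ (i : G) ∈ S)
    (hsupp : ∀ x ∈ S, ∀ y ∈ S, ∀ hxy : x * y ∈ H, α ⟨x * y, hxy⟩ ≠ 0 → x ∈ H ∧ y ∈ H) :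
    ∑ x ∈ S, ∑ y ∈ S, Cfsg.indFun H α (x * y) =
      (Nat.card G : ℂ) / (Nat.card H : ℂ) * ∑ i ∈ T, ∑ j ∈ T, α (i * j) := by
  classical
  have key : ∀ g : G, ∑ x ∈ S, ∑ y ∈ S, Cfsg.extendByZero H α (g⁻¹ * (x * y) * g) =
      ∑ i ∈ T, ∑ j ∈ T, α (i * j) := by
    intro g
    have h1 : ∑ x ∈ S, ∑ y ∈ S, Cfsg.extendByZero H α (g⁻¹ * (x * y) * g) =
        ∑ x ∈ S, ∑ y ∈ S, Cfsg.extendByZero H α (x * y) := by
      refine Finset.sum_equiv (MulAut.conj g⁻¹).toEquiv (fun x => ?_) fun x _ => ?_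
      · refine ⟨fun h => by simpa using hS g⁻¹ x h, fun h => ?_⟩
        have := hS g _ h
        simpa [mul_assoc] using this
      refine Finset.sum_equiv (MulAut.conj g⁻¹).toEquiv (fun y => ?_) fun y _ => ?_
      · refine ⟨fun h => by simpa using hS g⁻¹ y h, fun h => ?_⟩
        have := hS g _ h
        simpa [mul_assoc] using this
      simp [mul_assoc]
    rw [h1]
    have hz : ∀ x ∈ S, ∀ y ∈ S, ¬ (x ∈ H ∧ y ∈ H) → Cfsg.extendByZero H α (x * y) = 0 := by
      intro x hx y hy hne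
      by_cases hm : x * y ∈ H
      · rw [H25.extendByZero_of_mem H α hm]
        by_contra h0
        exact hne (hsupp x hx y hy hm h0)
      · exact H25.extendByZero_of_notMem H α hm
    have hmap : T.map ⟨Subtype.val, Subtype.val_injective⟩ = S.filter (· ∈ H) := by
      ext x
      simp only [Finset.mem_map, Function.Embedding.coeFn_mk, Finset.mem_filter]
      exact ⟨fun ⟨i, hi, e⟩ => e ▸ ⟨(hT i).1 hi, i.2⟩, fun ⟨h, h'⟩ => ⟨⟨x, h'⟩, (hT _).2 h, rfl⟩⟩
    calc ∑ x ∈ S, ∑ y ∈ S, Cfsg.extendByZero H α (x * y)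
        = ∑ x ∈ S.filter (· ∈ H), ∑ y ∈ S.filter (· ∈ H), Cfsg.extendByZero H α (x * y) := by
          rw [Finset.sum_filter]
          refine Finset.sum_congr rfl fun x hx => ?_
          split_ifs with h
          · rw [Finset.sum_filter]
            refine Finset.sum_congr rfl fun y hy => ?_
            split_ifs with h'
            · rfl
            · exact hz x hx y hy fun e => h' e.2
          · exact Finset.sum_eq_zero fun y hy => hz x hx y hy fun e => h e.1
      _ = _ := by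
          rw [← hmap, Finset.sum_map]
          refine Finset.sum_congr rfl fun i _ => ?_
          rw [Finset.sum_map]
          exact Finset.sum_congr rfl fun j _ => H25.extendByZero_apply_coe H α (i * j)
  simp only [H25.indFun_apply, ← Finset.mul_sum]
  rw [Finset.sum_congr rfl fun x _ => Finset.sum_comm, Finset.sum_comm,
    Finset.sum_congr rfl fun g _ => key g, Finset.sum_const, nsmul_eq_mul, Finset.card_univ,
    ← Nat.card_eq_fintype_card]
  ring

/-- The arithmetic of the endgame. -/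
theorem arith_false {m z N ε κ γ : ℝ} (hm : 3 ≤ m) (hz : 2 * m + 1 ≤ z) (hN : 29 ≤ N) (hε : ε = 1 ∨ ε = -1)
    (hκ : κ * (1 - 1 / m) = N * (ε * (1 - 1 / m) + 2 * γ))
    (hcol : (1 + m * γ ^ 2) * (1 - 1 / z) ≤ 1) (hdeg : κ ^ 2 * (1 - 1 / z) ≤ N) : False := by
  have hm0 : (0 : ℝ) < m := by linarith
  have hz0 : (0 : ℝ) < z := by linarith
  set a := 1 - 1 / m with ha
  have ha0 : 2 / 3 ≤ a := by
    rw [ha]
    have : 1 / m ≤ 1 / 3 := one_div_le_one_div_of_le (by norm_num) hm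
    linarith
  have hw0 : 6 / 7 ≤ 1 - 1 / z := by
    have : 1 / z ≤ 1 / 7 := one_div_le_one_div_of_le (by norm_num) (by linarith)
    linarith
  have hg : m * γ ^ 2 * (z - 1) ≤ 1 := by
    have h1 := mul_le_mul_of_nonneg_right hcol hz0.le
    have h2 : (1 - 1 / z) * z = z - 1 := by field_simp
    nlinarith
  have hg2 : γ ^ 2 ≤ 1 / 18 := by
    have h0 : 0 ≤ γ ^ 2 := sq_nonneg γ
    nlinarith [mul_le_mul hm (show (6 : ℝ) ≤ z - 1 by linarith) (by norm_num) hm0.le,
      mul_nonneg h0 (mul_nonneg hm0.le (show (0 : ℝ) ≤ z - 1 by linarith))]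
  have habs : |2 * γ| ≤ 1 / 2 := by
    rw [abs_le]; constructor <;> nlinarith [sq_nonneg (2 * γ + 1 / 2), sq_nonneg (2 * γ - 1 / 2)]
  rw [abs_le] at habs
  have hb : (a - 1 / 2) ^ 2 ≤ (ε * a + 2 * γ) ^ 2 := by
    rcases hε with rfl | rfl <;> nlinarith
  have hκ2 : κ ^ 2 * a ^ 2 = N ^ 2 * (ε * a + 2 * γ) ^ 2 := by rw [← mul_pow, hκ, mul_pow]
  have ha1 : a ≤ 1 := by rw [ha]; have : 0 ≤ 1 / m := by positivity
                         linarith
  have h3 : N ^ 2 * ((1 : ℝ) / 4) ^ 2 ≤ κ ^ 2 := by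
    have h4 : ((1 : ℝ) / 4) * a ≤ a - 1 / 2 := by linarith
    have h5 : (((1 : ℝ) / 4) * a) ^ 2 ≤ (ε * a + 2 * γ) ^ 2 := le_trans (pow_le_pow_left₀ (by positivity) h4 2) hb
    have h6 := mul_le_mul_of_nonneg_left h5 (sq_nonneg N)
    rw [← hκ2] at h6
    nlinarith [sq_nonneg κ, pow_pos (show (0 : ℝ) < a by linarith) 2]
  nlinarith [mul_le_mul h3 hw0 (by norm_num) (sq_nonneg κ)]

end Cfsg.Agent.H60.SECore
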