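import Cfsg.Agent.H60.SECore.Coherent
import Cfsg.Agent.H60.SECore.Values
import Cfsg.Agent.H57.ExcFamily
import Cfsg.Agent.S0193
import Cfsg.Agent.S1486

/-!
Local facts for the endgame: the characters induced from those nontrivial on a central subgroup on which a
complement acts fixed point freely.
-/

set_option autoImplicit false
set_option linter.unusedSectionVars false

namespace Cfsg.Agent.H60.SECore

open scoped ComplexConjugate
open Cfsg Cfsg.Agent

section Local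

variable {L : Type*} [Group L] [Fintype L] {K D Z : Subgroup L} [hK : K.Normal] [hZn : Z.Normal]
  (hZK : Z ≤ K) (hsup : K ⊔ D = ⊤) (hZc : ∀ z ∈ Z, ∀ k ∈ K, z * k = k * z)
  (hfpf : ∀ d ∈ D, d ≠ 1 → ∀ z ∈ Z, d * z = z * d → z = 1)

include hZK hsup hZc hfpf in
/-- The stabiliser of a character nontrivial on `Z` is the kernel. -/
theorem mem_of_fix {θ : K → ℂ} (hθ : IsIrrCharacter K θ) (hne : ¬ ∀ z : K, (z : L) ∈ Z → θ z = θ 1)
    {g : L} (hg : ∀ z : K, (z : L) ∈ Z → θ ⟨g * z * g⁻¹, hK.conj_mem z z.2 g⟩ = θ z) : g ∈ K := by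
  obtain ⟨k, hk, d, hd, rfl⟩ := Subgroup.mem_sup_of_normal_left.1 (hsup ▸ Subgroup.mem_top g)
  refine K.mul_mem hk ?_
  by_cases hd1 : d = 1
  · rw [hd1]; exact K.one_mem
  exfalso
  refine hne fun w hw => ?_
  let f : Z → Z := fun z => ⟨d * z * d⁻¹ * (z : L)⁻¹, Z.mul_mem (hZn.conj_mem z z.2 d) (Z.inv_mem z.2)⟩
  have hf : Function.Injective f := by
    intro a b hab
    have e : d * (a : L) * d⁻¹ * (a : L)⁻¹ = d * (b : L) * d⁻¹ * (b : L)⁻¹ := congrArg Subtype.val hab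
    have hq : (b : L)⁻¹ * a ∈ Z := Z.mul_mem (Z.inv_mem b.2) a.2
    refine Subtype.ext ?_
    have hcomm : (a : L) * b = b * a := hZc a a.2 b (hZK b.2)
    have e' : d * ((b : L)⁻¹ * a) * d⁻¹ = (b : L)⁻¹ * a := by
      calc d * ((b : L)⁻¹ * a) * d⁻¹ = (d * b * d⁻¹)⁻¹ * (d * a * d⁻¹) := by group
        _ = (d * b * d⁻¹)⁻¹ * ((d * (b : L) * d⁻¹ * (b : L)⁻¹) * a) := by rw [← e]; group
        _ = (b : L)⁻¹ * a := by group
    have h1 := hfpf d hd hd1 _ hq (mul_inv_eq_iff_eq_mul.1 e')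
    exact (inv_mul_eq_one.1 h1).symm
  obtain ⟨z, hz⟩ := (Finite.injective_iff_surjective.1 hf) ⟨w, hw⟩
  have hz' : d * (z : L) * d⁻¹ * (z : L)⁻¹ = (w : L) := congrArg Subtype.val hz
  have hdz : d * (z : L) * d⁻¹ ∈ Z := hZn.conj_mem z z.2 d
  have e1 := hg ⟨z, hZK z.2⟩ z.2
  have e2 : k * d * (z : L) * (k * d)⁻¹ = d * z * d⁻¹ := by
    rw [show k * d * (z : L) * (k * d)⁻¹ = k * (d * z * d⁻¹) * k⁻¹ by group, ← hZc _ hdz k hk]
    group
  simp only [e2] at e1
  have h := central_quot hθ (u := ⟨d * z * d⁻¹, hZK hdz⟩) (v := ⟨(z : L), hZK z.2⟩)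
    (fun c => Subtype.ext (hZc _ hdz c c.2)) (fun c => Subtype.ext (hZc _ z.2 c c.2)) e1
  rwa [show (⟨d * z * d⁻¹, hZK hdz⟩ : K) * (⟨(z : L), hZK z.2⟩ : K)⁻¹ = w from Subtype.ext hz'] at h

omit hZn in
/-- Members outside `S(Z)` come from characters nontrivial on `Z`. -/
theorem exists_member {χ : L → ℂ} (hχ : χ ∈ inducedIrrAbove K ⊥ \ inducedIrrAbove K Z) :
    ∃ θ : K → ℂ, IsIrrCharacter K θ ∧ (¬ ∀ z : K, (z : L) ∈ Z → θ z = θ 1) ∧ χ = indFun K θ := by
  obtain ⟨⟨θ, hθ, h1, -, rfl⟩, hnot⟩ := hχ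
  exact ⟨θ, hθ, fun h => hnot ⟨θ, hθ, h1, h, rfl⟩, rfl⟩

include hZK hsup hZc hfpf in
/-- Members outside `S(Z)` are irreducible. -/
theorem part_irr {χ : L → ℂ} (hχ : χ ∈ inducedIrrAbove K ⊥ \ inducedIrrAbove K Z) :
    IsIrrCharacter L χ := by
  obtain ⟨θ, hθ, hne, rfl⟩ := exists_member hχ
  refine H57.irr_of_char_norm_one (H25.isCharacter_indFun K (H26.isCharacter_of_irr hθ)) ?_
  have h := S0193.result K θ hθ
  have hcard : Nat.card {g : L // ∀ x : K, θ ⟨g * x * g⁻¹, hK.conj_mem x x.2 g⟩ = θ x} = Nat.card K := by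
    refine Nat.card_congr (Equiv.subtypeEquivRight fun g => ⟨fun hg =>
      mem_of_fix hZK hsup hZc hfpf hθ hne fun z _ => hg z, fun hg x => ?_⟩)
    exact H26.irr_conj ⟨θ, hθ⟩ x ⟨g, hg⟩
  rw [hcard] at h
  exact (mul_eq_left₀ (Nat.cast_ne_zero.2 Nat.card_pos.ne')).1 h

include hZK hsup hZc hfpf in
/-- Members outside `S(Z)` are not real. -/
theorem part_conj_ne (hidx : Odd K.index) (hZodd : Odd (Nat.card Z)) {χ : L → ℂ}
    (hχ : χ ∈ inducedIrrAbove K ⊥ \ inducedIrrAbove K Z) : conjFun χ ≠ χ := by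
  intro hcj
  have hn := H57.irr_inner_self (part_irr hZK hsup hZc hfpf hχ)
  haveI : Fintype K := Fintype.ofFinite K
  obtain ⟨θ, hθ, hne, rfl⟩ := exists_member hχ
  rw [H57.conjFun_indFun] at hcj
  have hθ' : IsIrrCharacter K (conjFun θ) := H57.irr_conjFun hθ
  obtain ⟨g, hg⟩ : ∃ g : L, conjFun θ = fun h : K => θ ⟨g * h * g⁻¹, hK.conj_mem h h.2 g⟩ := by
    by_contra hno
    have h0 := (S1486.result K θ (conjFun θ) hθ hθ').2 hno
    rw [hcj, hn] at h0
    exact one_ne_zero h0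
  have hgz : ∀ z : K, θ ⟨g * z * g⁻¹, hK.conj_mem z z.2 g⟩ = conj (θ z) := fun z =>
    (congrFun hg z).symm
  have hg2 : g * g ∈ K := by
    refine mem_of_fix hZK hsup hZc hfpf hθ hne fun z _ => ?_
    have e : (⟨g * g * z * (g * g)⁻¹, hK.conj_mem z z.2 (g * g)⟩ : K) =
        ⟨g * ((⟨g * z * g⁻¹, hK.conj_mem z z.2 g⟩ : K) : L) * g⁻¹, hK.conj_mem _ (Subtype.prop _) g⟩ :=
      Subtype.ext (by group)
    rw [e, hgz, hgz, Complex.conj_conj]
  have hgK : g ∈ K := by
    rw [← QuotientGroup.eq_one_iff] at hg2 ⊢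
    rw [QuotientGroup.mk_mul] at hg2
    have hdvd : orderOf (g : L ⧸ K) ∣ 2 := orderOf_dvd_of_pow_eq_one (by rw [pow_two]; exact hg2)
    have hodd : Odd (orderOf (g : L ⧸ K)) := Odd.of_dvd_nat hidx (orderOf_dvd_natCard _)
    rcases (Nat.dvd_prime Nat.prime_two).1 hdvd with h | h
    · exact orderOf_eq_one_iff.1 h
    · rw [h] at hodd; exact absurd hodd (by decide)
  refine hne fun w hw => ?_
  obtain ⟨j, hj⟩ := hZodd
  set v : K := w ^ (j + 1) with hv
  have hvZ : (v : L) ∈ Z := by rw [hv, SubmonoidClass.coe_pow]; exact Z.pow_mem hw _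
  have e1 := hgz v
  rw [show (⟨g * v * g⁻¹, hK.conj_mem v v.2 g⟩ : K) = v from Subtype.ext (by
    show g * (v : L) * g⁻¹ = v
    rw [← hZc _ hvZ g hgK, mul_inv_cancel_right]), ← H26.irr_inv ⟨θ, hθ⟩ v] at e1
  have h := central_quot hθ (fun c => Subtype.ext (hZc _ hvZ c c.2))
    (fun c => Subtype.ext (hZc _ (by simpa using Z.inv_mem hvZ) c c.2)) e1
  have hwone : w ^ (2 * j + 1) = 1 := Subtype.ext (by
    have := congrArg Subtype.val (pow_card_eq_one' (x := (⟨(w : L), hw⟩ : Z)))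
    rw [hj] at this
    simpa using this)
  rwa [show v * (v⁻¹)⁻¹ = w by
    rw [inv_inv, hv, ← pow_add, show j + 1 + (j + 1) = (2 * j + 1) + 1 by omega, pow_succ, hwone,
      one_mul]] at h

end Local

section Column

open scoped Classical in
/-- The size of a class times the order of the centraliser. -/
theorem class_card_mul {G : Type*} [Group G] [Fintype G] (h : G) :
    (Finset.univ.filter (IsConj h)).card * Nat.card (Subgroup.centralizer ({h} : Set G)) = Nat.card G := by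
  have := H26.card_class_mul_card_centralizer h
  simp only [ConjClasses.mk_eq_mk_iff_isConj] at this
  rwa [show Finset.univ.filter (IsConj h) = Finset.univ.filter fun g : G => IsConj g h from
    Finset.filter_congr fun x _ => isConj_comm]

/-- Distinct irreducible characters have squared values bounded by the order of the centraliser. -/
theorem sum_re_sq_le {G : Type*} [Group G] [Fintype G] {ι : Type*} (s : Finset ι)
    (f : ι → IrrCharacter G) (hf : Set.InjOn f s) (g : G) :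
    ∑ i ∈ s, ((f i).1 g).re ^ 2 ≤ (Nat.card (Subgroup.centralizer ({g} : Set G)) : ℝ) := by
  classical
  calc ∑ i ∈ s, ((f i).1 g).re ^ 2 = ∑ φ ∈ s.image f, (φ.1 g).re ^ 2 :=
        (Finset.sum_image (g := f) (f := fun φ : IrrCharacter G => (φ.1 g).re ^ 2) hf).symm
    _ ≤ ∑ φ : IrrCharacter G, (φ.1 g).re ^ 2 :=
        Finset.sum_le_univ_sum_of_nonneg fun φ => sq_nonneg _
    _ ≤ ∑ φ : IrrCharacter G, (φ.1 g * conj (φ.1 g)).re := Finset.sum_le_sum fun φ _ => by
        simp only [Complex.mul_re, Complex.conj_re, Complex.conj_im]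
        nlinarith [sq_nonneg (φ.1 g).im]
    _ = _ := by
        rw [← Complex.re_sum, H26.column_orthogonality, H26.classIndicator, if_pos (IsConj.refl g),
          mul_one, Complex.natCast_re]

end Column

end Cfsg.Agent.H60.SECore
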