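import Cfsg.Agent.H60.SECore.EndgameLocal
import Mathlib.Tactic.Linarith

/-!
The values at an involution of the exceptional characters: the numerical contradiction of the endgame.
-/

set_option autoImplicit false
set_option linter.unusedSectionVars false

namespace Cfsg.Agent.H60.SECore

open scoped ComplexConjugate
open Cfsg Cfsg.Agent

open scoped Classical in
/-- The exceptional characters cannot exist: degrees, values at an involution and involution pairs clash. -/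
theorem endgame_values {G : Type*} [Group G] [Fintype G] (H : Subgroup G) [Fintype H] (K Z : Subgroup H)
    [Z.Normal] (t : H) (htt : t * t = 1) (A : Subgroup H) [A.Normal]
    (hA : ∀ a : H, a ∈ A ↔ a = 1 ∨ IsConj t a) (ht1 : t ≠ 1)
    (hm : 3 ≤ (Finset.univ.filter (IsConj t)).card)
    (hz : 2 * (Finset.univ.filter (IsConj t)).card + 1 ≤ Nat.card Z)
    (htZ : ∀ i : H, IsConj t i → i ∉ Z) (htinj : ∀ i j : H, IsConj t i → IsConj t j → i⁻¹ * j ∈ Z → i = j)
    (hcent : ∀ c : G, c * (t : G) = (t : G) * c → c ∈ H)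
    (hout : ∀ x : G, x ∉ H → x⁻¹ * (t : G) * x ∉ H)
    (hconj : ∀ i : H, IsConj (t : G) (i : G) → IsConj t i)
    (hpair : ∀ x y : G, IsConj (t : G) x → IsConj (t : G) y → ∀ hxy : x * y ∈ H,
      (⟨x * y, hxy⟩ : H) ∈ K → x * y ≠ 1 → x ∈ H ∧ y ∈ H)
    (hN : 29 ≤ H.index) (Φ : IrrCharacter H → IrrCharacter G) (ε : ℝ) (hε : ε = 1 ∨ ε = -1)
    (hinj : Set.InjOn Φ {ψ | ¬ Z ≤ H44.kerOf ψ})
    (hoff : ∀ ψ : IrrCharacter H, ¬ Z ≤ H44.kerOf ψ → ∀ x, x ∉ K → ψ.1 x = 0)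
    (hdiff : ∀ ψ ψ' : IrrCharacter H, ¬ Z ≤ H44.kerOf ψ → ¬ Z ≤ H44.kerOf ψ' → ∀ a b : ℕ,
      ψ.1 1 = a → ψ'.1 1 = b → ∀ g : G,
      indFun H (fun h => (b : ℂ) * ψ.1 h - (a : ℂ) * ψ'.1 h) g =
        (ε : ℂ) * ((b : ℂ) * (Φ ψ).1 g - (a : ℂ) * (Φ ψ').1 g)) : False := by
  set T : Finset H := Finset.univ.filter (IsConj t) with hT
  set S : Finset G := Finset.univ.filter (IsConj (t : G)) with hS
  set F : Finset (IrrCharacter H) := Finset.univ.filter (fun ψ => ¬ Z ≤ H44.kerOf ψ) with hF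
  haveI : Fintype (H ⧸ Z) := Fintype.ofFinite _
  have hFm : ∀ {ψ}, ψ ∈ F ↔ ¬ Z ≤ H44.kerOf ψ := fun {ψ} => by simp [hF]
  choose d hd0 hd using fun ψ : IrrCharacter H => H57.irr_degree ψ.2
  choose D hD0 hD using fun φ : IrrCharacter G => H57.irr_degree φ.2
  have hinv : t⁻¹ = t := inv_eq_of_mul_eq_one_right htt
  have hreL : ∀ ψ : IrrCharacter H, ψ.1 t = ((ψ.1 t).re : ℂ) := fun ψ =>
    (Complex.conj_eq_iff_re.1 (by rw [← H26.irr_inv, hinv])).symm
  have hreG : ∀ φ : IrrCharacter G, φ.1 (t : G) = ((φ.1 t).re : ℂ) := fun φ =>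
    (Complex.conj_eq_iff_re.1 (by rw [← H26.irr_inv, ← Subgroup.coe_inv, hinv])).symm
  set y : IrrCharacter H → ℝ := fun ψ => (ψ.1 t).re with hy
  set x : IrrCharacter H → ℝ := fun ψ => ((Φ ψ).1 t).re with hx
  set m : ℝ := (T.card : ℝ) with hm'
  set z : ℝ := (Nat.card Z : ℝ) with hz'
  set N : ℝ := (H.index : ℝ) with hN'
  set q : ℝ := (Nat.card (Subgroup.centralizer ({t} : Set H)) : ℝ) with hq
  set l : ℝ := (Nat.card H : ℝ) with hl
  have hm3 : (3 : ℝ) ≤ m := by rw [hm']; exact_mod_cast hm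
  have hz2 : 2 * m + 1 ≤ z := by rw [hm', hz']; exact_mod_cast hz
  have hm0 : (0 : ℝ) < m := by linarith
  have hz0 : (0 : ℝ) < z := by linarith
  have hqm : m * q = l := by
    have h : T.card * Nat.card (Subgroup.centralizer ({t} : Set H)) = Nat.card H := by
      convert class_card_mul t
    rw [hm', hq, hl]; exact_mod_cast h
  -- the quotient by `Z`
  set lb : ℝ := (Nat.card (H ⧸ Z) : ℝ) with hlb
  have hlz : lb * z = l := by
    rw [hlb, hz', hl]; exact_mod_cast (Subgroup.card_eq_card_quotient_mul_card_subgroup Z).symm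
  have himg : Finset.univ.filter (IsConj ((t : H) : H ⧸ Z)) = T.image ((↑) : H → H ⧸ Z) := by
    ext w
    simp only [hT, Finset.mem_filter, Finset.mem_univ, true_and, Finset.mem_image]
    constructor
    · intro h
      obtain ⟨c, rfl⟩ := isConj_iff.1 h
      obtain ⟨c', rfl⟩ := QuotientGroup.mk_surjective c
      exact ⟨c' * t * c'⁻¹, isConj_iff.2 ⟨c', rfl⟩, rfl⟩
    · rintro ⟨i, hi, rfl⟩
      exact MonoidHom.map_isConj (QuotientGroup.mk' Z) hi
  have hqb : m * (Nat.card (Subgroup.centralizer ({(t : H ⧸ Z)} : Set (H ⧸ Z))) : ℝ) = lb := by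
    rw [hm', hlb]
    have h : (T.image ((↑) : H → H ⧸ Z)).card *
        Nat.card (Subgroup.centralizer ({(t : H ⧸ Z)} : Set (H ⧸ Z))) = Nat.card (H ⧸ Z) := by
      rw [← himg]
      convert class_card_mul (t : H ⧸ Z)
    rw [Finset.card_image_of_injOn fun i hi j hj e => htinj i j (Finset.mem_filter.1 hi).2
      (Finset.mem_filter.1 hj).2 (QuotientGroup.eq.1 e)] at h
    exact_mod_cast h
  have htq : ((t : H) : H ⧸ Z) ≠ 1 := fun e => htZ t (IsConj.refl t) ((QuotientGroup.eq_one_iff t).1 e)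
  -- the three sums
  have hc1 : Nat.card (Subgroup.centralizer ({1} : Set H)) = Nat.card H := by
    rw [show Subgroup.centralizer ({1} : Set H) = ⊤ from
      top_unique fun c _ => Subgroup.mem_centralizer_singleton_iff.2 (by simp), Subgroup.card_top]
  have hc1' : Nat.card (Subgroup.centralizer ({1} : Set (H ⧸ Z))) = Nat.card (H ⧸ Z) := by
    rw [show Subgroup.centralizer ({1} : Set (H ⧸ Z)) = ⊤ from
      top_unique fun c _ => Subgroup.mem_centralizer_singleton_iff.2 (by simp), Subgroup.card_top]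
  have A1 : ∑ ψ ∈ F, (d ψ : ℝ) ^ 2 = l * (1 - 1 / z) := by
    have h := sum_nontrivial_on Z (1 : H) 1
    rw [QuotientGroup.mk_one, hc1, hc1', H26.classIndicator, if_pos (IsConj.refl _), H26.classIndicator,
      if_pos (IsConj.refl _), mul_one, mul_one] at h
    have e : ((∑ ψ ∈ F, (d ψ : ℝ) ^ 2 : ℝ) : ℂ) = ((l - lb : ℝ) : ℂ) := by
      push_cast [hl, hlb]
      rw [← h]
      exact Finset.sum_congr rfl fun ψ _ => by rw [hd, map_natCast, pow_two]
    rw [Complex.ofReal_inj.1 e, ← hlz]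
    field_simp
  have A2 : ∑ ψ ∈ F, (d ψ : ℝ) * y ψ = 0 := by
    have h := sum_nontrivial_on Z t 1
    rw [QuotientGroup.mk_one, H26.classIndicator, if_neg fun e => ht1 (isConj_one_left.1 e),
      H26.classIndicator, if_neg fun e => htq (isConj_one_left.1 e), mul_zero, mul_zero, sub_zero] at h
    apply Complex.ofReal_inj.1
    push_cast
    rw [← h]
    exact Finset.sum_congr rfl fun ψ _ => by rw [hd, map_natCast, hreL ψ, mul_comm]
  have A3 : ∑ ψ ∈ F, y ψ ^ 2 = l / m * (1 - 1 / z) := by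
    have h := sum_nontrivial_on Z t t
    rw [H26.classIndicator, if_pos (IsConj.refl _), H26.classIndicator, if_pos (IsConj.refl _), mul_one,
      mul_one] at h
    have e : ((∑ ψ ∈ F, y ψ ^ 2 : ℝ) : ℂ) =
        ((q - (Nat.card (Subgroup.centralizer ({(t : H ⧸ Z)} : Set (H ⧸ Z))) : ℝ) : ℝ) : ℂ) := by
      push_cast [hq]
      rw [← h]
      refine Finset.sum_congr rfl fun ψ _ => ?_
      conv_rhs => rw [hreL ψ, Complex.conj_ofReal]
      rw [pow_two]
    rw [Complex.ofReal_inj.1 e, ← hqm, mul_div_cancel_left₀ _ hm0.ne']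
    have h2 : (Nat.card (Subgroup.centralizer ({(t : H ⧸ Z)} : Set (H ⧸ Z))) : ℝ) = q / z := by
      rw [eq_div_iff hz0.ne']
      apply mul_left_cancel₀ hm0.ne'
      rw [← mul_assoc, hqb, hlz, hqm]
    rw [h2]
    ring
  -- the ratios
  have hratio : ∀ ψ : IrrCharacter H, y ψ = d ψ ∨ y ψ = -(d ψ : ℝ) / m := by
    intro ψ
    haveI : Fintype A := Fintype.ofFinite A
    rcases H57.irr_sum_normal A ψ.2 with h | h
    · left
      rw [hy]
      simp only [h t ((hA t).2 (Or.inr (IsConj.refl t))), hd, Complex.natCast_re]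
    · right
      rw [← Finset.sum_subtype (insert 1 T) (fun a => by simp [hT, hA a]) ψ.1,
        Finset.sum_insert (by simp [hT, isConj_one_left, ht1]),
        Finset.sum_congr rfl (fun i hi => by
          obtain ⟨c, rfl⟩ := isConj_iff.1 (Finset.mem_filter.1 hi).2
          exact H26.irr_conj ψ t c : ∀ i ∈ T, ψ.1 i = ψ.1 t),
        Finset.sum_const, nsmul_eq_mul, hd, hreL ψ] at h
      have h' : (d ψ : ℝ) + m * y ψ = 0 := by
        rw [hm', hy]; apply Complex.ofReal_inj.1; push_cast; exact h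
      rw [eq_div_iff hm0.ne']
      linarith
  have hlpos : 0 < l := by rw [hl]; exact_mod_cast Nat.card_pos
  have hw : 0 < 1 - 1 / z := by
    have : 1 / z ≤ 1 / 7 := one_div_le_one_div_of_le (by norm_num) (by linarith)
    linarith
  obtain ⟨ψa, hψa, hya⟩ : ∃ ψ ∈ F, y ψ = d ψ := by
    by_contra hall
    push Not at hall
    have : ∑ ψ ∈ F, (d ψ : ℝ) * y ψ = -(1 / m) * ∑ ψ ∈ F, (d ψ : ℝ) ^ 2 := by
      rw [Finset.mul_sum]
      refine Finset.sum_congr rfl fun ψ hψ => ?_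
      rw [(hratio ψ).resolve_left (hall ψ hψ)]
      ring
    rw [A2, A1] at this
    have : 0 < 1 / m * (l * (1 - 1 / z)) := mul_pos (one_div_pos.2 hm0) (mul_pos hlpos hw)
    linarith
  obtain ⟨ψb, hψb, hyb⟩ : ∃ ψ ∈ F, y ψ = -(d ψ : ℝ) / m := by
    by_contra hall
    push Not at hall
    have : ∑ ψ ∈ F, (d ψ : ℝ) * y ψ = ∑ ψ ∈ F, (d ψ : ℝ) ^ 2 := by
      refine Finset.sum_congr rfl fun ψ hψ => ?_
      rw [(hratio ψ).resolve_right (hall ψ hψ)]
      ring
    rw [A2, A1] at this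
    have : 0 < l * (1 - 1 / z) := mul_pos hlpos hw
    linarith
  -- degrees and values in the group
  have hε2 : ε * ε = 1 := by rcases hε with rfl | rfl <;> norm_num
  have hclass : ∀ ψ ψ' : IrrCharacter H,
      IsClassFunction H (fun h => (d ψ' : ℂ) * ψ.1 h - (d ψ : ℂ) * ψ'.1 h) := fun ψ ψ' g c => by
    show _ * ψ.1 _ - _ * ψ'.1 _ = _
    rw [H26.irr_conj, H26.irr_conj]
  have E1 : ∀ ψ ∈ F, ∀ ψ' ∈ F, (d ψ' : ℝ) * D (Φ ψ) = d ψ * D (Φ ψ') := by
    intro ψ hψ ψ' hψ'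
    have h := hdiff ψ ψ' (hFm.1 hψ) (hFm.1 hψ') _ _ (hd ψ) (hd ψ') 1
    rw [H25.indFun_one, hd, hd, hD, hD, mul_comm (d ψ' : ℂ) (d ψ), sub_self, mul_zero] at h
    have h0 : (ε : ℂ) ≠ 0 := Complex.ofReal_ne_zero.2 fun e => by rw [e] at hε2; norm_num at hε2
    have h1 := sub_eq_zero.1 ((mul_eq_zero.1 h.symm).resolve_left h0)
    exact_mod_cast h1
  have E2 : ∀ ψ ∈ F, ∀ ψ' ∈ F, (d ψ' : ℝ) * y ψ - d ψ * y ψ' = ε * (d ψ' * x ψ - d ψ * x ψ') := by
    intro ψ hψ ψ' hψ'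
    have h := hdiff ψ ψ' (hFm.1 hψ) (hFm.1 hψ') _ _ (hd ψ) (hd ψ') (t : G)
    rw [H25.indFun_apply_eq_self H _ (hclass ψ ψ') t fun w hw =>
      H25.extendByZero_of_notMem H _ (hout w hw), hreL ψ, hreL ψ', hreG (Φ ψ), hreG (Φ ψ')] at h
    apply Complex.ofReal_inj.1
    push_cast
    exact h
  have hcentG : (Nat.card (Subgroup.centralizer ({(t : G)} : Set G)) : ℝ) = q := by
    rw [hq]
    have hle : Subgroup.centralizer ({(t : G)} : Set G) ≤ H := fun c hc =>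
      hcent c (Subgroup.mem_centralizer_singleton_iff.1 hc)
    rw [← Nat.card_congr (Subgroup.subgroupOfEquivOfLe hle).toEquiv,
      show (Subgroup.centralizer ({(t : G)} : Set G)).subgroupOf H = Subgroup.centralizer ({t} : Set H) by
        ext c
        simp only [Subgroup.mem_subgroupOf, Subgroup.mem_centralizer_singleton_iff, ← Subtype.val_inj,
          Subgroup.coe_mul]]
  have hNl : (Nat.card G : ℝ) = N * l := by
    rw [hN', hl]; exact_mod_cast H.index_mul_card.symm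
  have hScard : (S.card : ℝ) = N * m := by
    have h : (S.card : ℝ) * (Nat.card (Subgroup.centralizer ({(t : G)} : Set G)) : ℝ) = Nat.card G := by
      exact_mod_cast class_card_mul (t : G)
    have hq0 : 0 < q := by rw [hq]; exact_mod_cast Nat.card_pos
    rw [hcentG, hNl, ← hqm, ← mul_assoc] at h
    exact mul_right_cancel₀ hq0.ne' h
  have hNpos : 0 < N := by rw [hN']; exact_mod_cast (by omega : 0 < H.index)
  have E3 : ∀ ψ ∈ F, ∀ ψ' ∈ F,
      N * ε * (d ψ' * x ψ ^ 2 / D (Φ ψ) - d ψ * x ψ' ^ 2 / D (Φ ψ')) =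
        d ψ' * y ψ ^ 2 / d ψ - d ψ * y ψ' ^ 2 / d ψ' := by
    intro ψ hψ ψ' hψ'
    set α : H → ℂ := fun h => (d ψ' : ℂ) * ψ.1 h - (d ψ : ℂ) * ψ'.1 h with hα
    have hsum := sum_pairs_ind H α S T
      (fun g w hw => by
        simp only [hS, Finset.mem_filter, Finset.mem_univ, true_and] at hw ⊢
        exact hw.trans (isConj_iff.2 ⟨g, rfl⟩))
      (fun i => by
        simp only [hT, hS, Finset.mem_filter, Finset.mem_univ, true_and]
        exact ⟨fun h => MonoidHom.map_isConj H.subtype h, hconj i⟩)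
      (fun u hu v hv huv h0 => by
        simp only [hS, Finset.mem_filter, Finset.mem_univ, true_and] at hu hv
        refine hpair u v hu hv huv ?_ ?_
        · by_contra hK
          exact h0 (by simp [hα, hoff ψ (hFm.1 hψ) _ hK, hoff ψ' (hFm.1 hψ') _ hK])
        · intro h1
          have e1 : (⟨u * v, huv⟩ : H) = 1 := Subtype.ext h1
          exact h0 (by simp [hα, e1, hd, mul_comm]))
    have hl' : ∑ u ∈ S, ∑ v ∈ S, indFun H α (u * v) = (ε : ℂ) * ((d ψ' : ℂ) *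
        ∑ u ∈ S, ∑ v ∈ S, (Φ ψ).1 (u * v) - (d ψ : ℂ) * ∑ u ∈ S, ∑ v ∈ S, (Φ ψ').1 (u * v)) := by
      simp only [Finset.mul_sum, ← Finset.sum_sub_distrib]
      exact Finset.sum_congr rfl fun u _ => Finset.sum_congr rfl fun v _ =>
        hdiff ψ ψ' (hFm.1 hψ) (hFm.1 hψ') _ _ (hd ψ) (hd ψ') (u * v)
    have hr' : ∑ i ∈ T, ∑ j ∈ T, α (i * j) = (d ψ' : ℂ) * ∑ i ∈ T, ∑ j ∈ T, ψ.1 (i * j) -
        (d ψ : ℂ) * ∑ i ∈ T, ∑ j ∈ T, ψ'.1 (i * j) := by
      simp only [hα, Finset.mul_sum, ← Finset.sum_sub_distrib]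
    rw [hl', hr', hS, H38.sum_class_pair_char, H38.sum_class_pair_char, hT, H38.sum_class_pair_char,
      H38.sum_class_pair_char, hd, hd, hD, hD, hreL ψ, hreL ψ', hreG (Φ ψ), hreG (Φ ψ'), ← hS, ← hT] at hsum
    have e : ε * ((d ψ' : ℝ) * ((S.card : ℝ) * S.card * (x ψ * x ψ / D (Φ ψ))) -
          d ψ * ((S.card : ℝ) * S.card * (x ψ' * x ψ' / D (Φ ψ')))) =
        (Nat.card G : ℝ) / l * ((d ψ' : ℝ) * (m * m * (y ψ * y ψ / d ψ)) -
          d ψ * (m * m * (y ψ' * y ψ' / d ψ'))) := by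
      apply Complex.ofReal_inj.1
      push_cast [hl, hm']
      exact hsum
    rw [hScard, hNl, mul_div_cancel_right₀ _ hlpos.ne'] at e
    have hne : N * m * m ≠ 0 := mul_ne_zero (mul_ne_zero hNpos.ne' hm0.ne') hm0.ne'
    apply mul_left_cancel₀ hne
    calc N * m * m * (N * ε * (d ψ' * x ψ ^ 2 / D (Φ ψ) - d ψ * x ψ' ^ 2 / D (Φ ψ')))
        = ε * ((d ψ' : ℝ) * (N * m * (N * m) * (x ψ * x ψ / D (Φ ψ))) -
          d ψ * (N * m * (N * m) * (x ψ' * x ψ' / D (Φ ψ')))) := by ring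
      _ = N * ((d ψ' : ℝ) * (m * m * (y ψ * y ψ / d ψ)) - d ψ * (m * m * (y ψ' * y ψ' / d ψ'))) := e
      _ = N * m * m * (d ψ' * y ψ ^ 2 / d ψ - d ψ * y ψ' ^ 2 / d ψ') := by ring
  -- the parameters
  have hda : (0 : ℝ) < d ψa := by exact_mod_cast hd0 ψa
  have hdb : (0 : ℝ) < d ψb := by exact_mod_cast hd0 ψb
  set κ : ℝ := D (Φ ψa) / d ψa with hκdef
  set γ : ℝ := (x ψa - ε * y ψa) / d ψa with hγdef
  have hκpos : 0 < κ := by
    have : (0 : ℝ) < D (Φ ψa) := by exact_mod_cast hD0 (Φ ψa)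
    rw [hκdef]; exact div_pos this hda
  have hDd : ∀ ψ ∈ F, (D (Φ ψ) : ℝ) = κ * d ψ := fun ψ hψ => by
    rw [hκdef, div_mul_eq_mul_div, eq_div_iff hda.ne']
    linear_combination E1 ψ hψ ψa hψa
  have hxd : ∀ ψ ∈ F, x ψ = ε * y ψ + γ * d ψ := fun ψ hψ => by
    have h := E2 ψ hψ ψa hψa
    apply mul_left_cancel₀ hda.ne'
    have hg : γ * d ψa = x ψa - ε * y ψa := by rw [hγdef, div_mul_cancel₀ _ hda.ne']
    linear_combination -ε * h - (d ψ : ℝ) * hg - ((d ψa : ℝ) * x ψ - (d ψ : ℝ) * x ψa) * hε2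
  have hκ : κ * (1 - 1 / m) = N * (ε * (1 - 1 / m) + 2 * γ) := by
    have h := E3 ψa hψa ψb hψb
    rw [hDd _ hψa, hDd _ hψb, hxd _ hψa, hxd _ hψb, hya, hyb] at h
    field_simp at h
    have hm1 : (m + 1) ≠ 0 := by linarith
    have h2 : (m + 1) * ((d ψa : ℝ) * d ψb) ≠ 0 := mul_ne_zero hm1 (mul_ne_zero hda.ne' hdb.ne')
    field_simp
    apply mul_left_cancel₀ hm1
    rcases hε with rfl | rfl <;> linarith
  have hxsum : ∑ ψ ∈ F, x ψ ^ 2 = l / m * (1 - 1 / z) * (1 + m * γ ^ 2) := by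
    have e : ∀ ψ ∈ F, x ψ ^ 2 = y ψ ^ 2 + 2 * ε * γ * ((d ψ : ℝ) * y ψ) + γ ^ 2 * (d ψ : ℝ) ^ 2 :=
      fun ψ hψ => by rw [hxd ψ hψ]; linear_combination (y ψ) ^ 2 * hε2
    rw [Finset.sum_congr rfl e, Finset.sum_add_distrib, Finset.sum_add_distrib, ← Finset.mul_sum,
      ← Finset.mul_sum, A1, A2, A3]
    field_simp
    ring
  have hinjF : Set.InjOn Φ F := fun a ha b hb e =>
    hinj (hFm.1 (Finset.mem_coe.1 ha)) (hFm.1 (Finset.mem_coe.1 hb)) e
  have hcol : (1 + m * γ ^ 2) * (1 - 1 / z) ≤ 1 := by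
    have h := sum_re_sq_le F Φ hinjF (t : G)
    rw [hcentG, hxsum] at h
    have hlm : l / m = q := by rw [← hqm, mul_div_cancel_left₀ _ hm0.ne']
    rw [hlm, mul_assoc] at h
    have hq0 : 0 < q := by rw [hq]; exact_mod_cast Nat.card_pos
    nlinarith
  have hdeg : κ ^ 2 * (1 - 1 / z) ≤ N := by
    have h := sum_re_sq_le F Φ hinjF (1 : G)
    rw [show Subgroup.centralizer ({1} : Set G) = ⊤ from
      top_unique fun c _ => Subgroup.mem_centralizer_singleton_iff.2 (by simp), Subgroup.card_top, hNl,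
      Finset.sum_congr rfl (fun ψ hψ => by rw [hD, Complex.natCast_re, hDd ψ hψ, mul_pow] :
        ∀ ψ ∈ F, ((Φ ψ).1 1).re ^ 2 = κ ^ 2 * (d ψ : ℝ) ^ 2),
      ← Finset.mul_sum, A1] at h
    nlinarith
  exact arith_false hm3 hz2 (by rw [hN']; exact_mod_cast hN) hε hκ hcol hdeg

end Cfsg.Agent.H60.SECore
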